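import Cfsg.Agent.H82.ProjLift

/-!
# Weyl systems: symmetric sections of central extensions of finite abelian groups of odd order
-/

set_option autoImplicit false

namespace Cfsg.Agent.H44.Parity

universe u v

/-- A central extension by the nonzero complex numbers of a finite abelian group of odd order. -/
structure Ext (U : Type u) (E : Type v) [Group U] [CommGroup E] where
  π : U →* E
  j : ℂˣ →* U
  surj : Function.Surjective π
  inj : Function.Injective j
  central : ∀ c u, j c * u = u * j c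
  ker : ∀ u, π u = 1 ↔ ∃ c, j c = u
  odd : Odd (Nat.card E)
  fin : Finite E

namespace Ext

variable {U : Type u} {E : Type v} [Group U] [CommGroup E] (X : Ext U E)

theorem π_j (c : ℂˣ) : X.π (X.j c) = 1 := (X.ker _).mpr ⟨c, rfl⟩

theorem exists_comm (p q : U) : ∃ c, X.j c * (q * p) = p * q := by
  obtain ⟨c, hc⟩ := (X.ker (p * q * (q * p)⁻¹)).mp
    (by rw [map_mul, map_inv, map_mul, map_mul, mul_comm (X.π q), mul_inv_cancel])
  exact ⟨c, by rw [hc, inv_mul_cancel_right]⟩

/-- The commutator pairing. -/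
noncomputable def β (p q : U) : ℂˣ := (X.exists_comm p q).choose

theorem β_spec (p q : U) : X.j (X.β p q) * (q * p) = p * q := (X.exists_comm p q).choose_spec

theorem β_unique {p q : U} {c : ℂˣ} (h : X.j c * (q * p) = p * q) : X.β p q = c :=
  X.inj (mul_right_cancel ((X.β_spec p q).trans h.symm))

theorem β_mul_left (p p' q : U) : X.β (p * p') q = X.β p q * X.β p' q := by
  apply X.β_unique
  calc X.j (X.β p q * X.β p' q) * (q * (p * p'))
      = X.j (X.β p q) * (X.j (X.β p' q) * (q * p)) * p' := by simp [mul_assoc]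
    _ = X.j (X.β p q) * ((q * p) * X.j (X.β p' q)) * p' := by rw [X.central (X.β p' q) (q * p)]
    _ = (X.j (X.β p q) * (q * p)) * (X.j (X.β p' q) * p') := by simp [mul_assoc]
    _ = p * (X.j (X.β p' q) * (q * p')) := by
        rw [X.β_spec]
        calc p * q * (X.j (X.β p' q) * p') = p * (q * X.j (X.β p' q)) * p' := by simp [mul_assoc]
          _ = p * (X.j (X.β p' q) * q) * p' := by rw [← X.central _ q]
          _ = _ := by simp [mul_assoc]
    _ = p * p' * q := by rw [X.β_spec, mul_assoc]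

theorem β_swap (p q : U) : X.β q p = (X.β p q)⁻¹ := by
  apply X.β_unique
  rw [map_inv, inv_mul_eq_iff_eq_mul, X.β_spec]

theorem β_mul_right (p q q' : U) : X.β p (q * q') = X.β p q * X.β p q' := by
  rw [X.β_swap (q * q') p, X.β_mul_left, X.β_swap p q, X.β_swap p q', mul_inv, inv_inv, inv_inv]

theorem β_self (p : U) : X.β p p = 1 := X.β_unique (by simp)

theorem β_j_left (c : ℂˣ) (q : U) : X.β (X.j c) q = 1 :=
  X.β_unique (by rw [map_one, one_mul, X.central])

theorem β_pow_left (p q : U) : ∀ k : ℕ, X.β (p ^ k) q = X.β p q ^ k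
  | 0 => by rw [pow_zero, pow_zero, show (1 : U) = X.j 1 from X.j.map_one.symm, X.β_j_left]
  | k + 1 => by rw [pow_succ, X.β_mul_left, β_pow_left p q k, pow_succ]

theorem β_pow_card (p q : U) : X.β p q ^ Nat.card E = 1 := by
  have := X.fin
  obtain ⟨c, hc⟩ := (X.ker (p ^ Nat.card E)).mp (by rw [map_pow, pow_card_eq_one'])
  rw [← X.β_pow_left, ← hc, X.β_j_left]

theorem β_congr_left {p p' : U} (h : X.π p = X.π p') (q : U) : X.β p q = X.β p' q := by
  obtain ⟨c, hc⟩ := (X.ker (p * p'⁻¹)).mp (by rw [map_mul, map_inv, h, mul_inv_cancel])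
  rw [show p = X.j c * p' by rw [hc, inv_mul_cancel_right], X.β_mul_left, X.β_j_left, one_mul]

theorem β_congr {p p' q q' : U} (h : X.π p = X.π p') (h' : X.π q = X.π q') :
    X.β p q = X.β p' q' := by
  rw [X.β_congr_left h, X.β_swap q p', X.β_swap q' p', X.β_congr_left h']

/-- A lift. -/
noncomputable def lift (x : E) : U := (X.surj x).choose

theorem π_lift (x : E) : X.π (X.lift x) = x := (X.surj x).choose_spec

/-- Half of the commutator pairing, on the quotient. -/
noncomputable def γ (x y : E) : ℂˣ := X.β (X.lift x) (X.lift y) ^ ((Nat.card E + 1) / 2)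

theorem γ_eq (p q : U) : X.γ (X.π p) (X.π q) = X.β p q ^ ((Nat.card E + 1) / 2) := by
  rw [γ, X.β_congr (X.π_lift (X.π p)) (X.π_lift (X.π q))]

theorem γ_mul_left (x x' y : E) : X.γ (x * x') y = X.γ x y * X.γ x' y := by
  obtain ⟨p, rfl⟩ := X.surj x; obtain ⟨p', rfl⟩ := X.surj x'; obtain ⟨q, rfl⟩ := X.surj y
  rw [← map_mul, γ_eq, γ_eq, γ_eq, X.β_mul_left, mul_pow]

theorem γ_swap (x y : E) : X.γ y x = (X.γ x y)⁻¹ := by
  rw [γ, γ, X.β_swap, inv_pow]

theorem γ_mul_right (x y y' : E) : X.γ x (y * y') = X.γ x y * X.γ x y' := by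
  rw [X.γ_swap (y * y') x, X.γ_mul_left, X.γ_swap x y, X.γ_swap x y', mul_inv, inv_inv, inv_inv]

theorem γ_self (x : E) : X.γ x x = 1 := by rw [γ, X.β_self, one_pow]

theorem γ_one_left (y : E) : X.γ 1 y = 1 := by
  have h := X.γ_mul_left 1 1 y
  rw [one_mul] at h
  exact (mul_eq_left (a := X.γ 1 y)).mp h.symm

theorem γ_one_right (y : E) : X.γ y 1 = 1 := by rw [X.γ_swap, X.γ_one_left, inv_one]

theorem γ_inv_left (x y : E) : X.γ x⁻¹ y = (X.γ x y)⁻¹ := by
  refine eq_inv_of_mul_eq_one_left ?_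
  rw [← X.γ_mul_left, inv_mul_cancel, X.γ_one_left]

theorem γ_sq (p q : U) : X.γ (X.π p) (X.π q) * X.γ (X.π p) (X.π q) = X.β p q := by
  rw [γ_eq, ← pow_add]
  obtain ⟨k, hk⟩ := X.odd
  rw [show (Nat.card E + 1) / 2 + (Nat.card E + 1) / 2 = Nat.card E + 1 by omega, pow_succ,
    X.β_pow_card, one_mul]

/-- A symmetric section. -/
structure IsWeyl (W : E → U) : Prop where
  section_ : ∀ x, X.π (W x) = x
  mul : ∀ x y, W x * W y = X.j (X.γ x y) * W (x * y)

/-- The twisted, commutative, copy of `U`. -/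
@[nolint unusedArguments]
structure Tw (_X : Ext U E) where
  val : U

noncomputable instance : Mul (Tw X) := ⟨fun a b => ⟨X.j (X.γ (X.π a.val) (X.π b.val))⁻¹ * (a.val * b.val)⟩⟩

theorem tw_mul_val (a b : Tw X) :
    (a * b).val = X.j (X.γ (X.π a.val) (X.π b.val))⁻¹ * (a.val * b.val) := rfl

theorem tw_π_mul (a b : Tw X) : X.π (a * b).val = X.π a.val * X.π b.val := by
  rw [tw_mul_val, map_mul, X.π_j, one_mul, map_mul]

instance : One (Tw X) := ⟨⟨1⟩⟩

noncomputable instance : Inv (Tw X) := ⟨fun a => ⟨a.val⁻¹⟩⟩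

theorem tw_ext {a b : Tw X} (h : a.val = b.val) : a = b := by
  cases a; cases b; subst h; rfl

noncomputable instance : CommGroup (Tw X) where
  mul_assoc a b c := by
    refine X.tw_ext ?_
    rw [X.tw_mul_val (a * b) c, X.tw_mul_val a (b * c), X.tw_π_mul, X.tw_π_mul, tw_mul_val,
      tw_mul_val, X.γ_mul_left, X.γ_mul_right, mul_inv, mul_inv, map_mul, map_mul]
    generalize (X.γ (X.π a.val) (X.π b.val))⁻¹ = c1
    generalize (X.γ (X.π b.val) (X.π c.val))⁻¹ = c2
    generalize (X.γ (X.π a.val) (X.π c.val))⁻¹ = c3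
    calc X.j c3 * X.j c2 * (X.j c1 * (a.val * b.val) * c.val)
        = X.j (c3 * c2 * c1) * (a.val * b.val * c.val) := by simp [mul_assoc]
      _ = X.j (c1 * c3) * X.j c2 * (a.val * (b.val * c.val)) := by
          rw [← map_mul, show c1 * c3 * c2 = c3 * c2 * c1 by ac_rfl, mul_assoc a.val]
      _ = X.j c1 * X.j c3 * ((X.j c2 * a.val) * (b.val * c.val)) := by simp [mul_assoc]
      _ = _ := by rw [X.central c2 a.val]; simp [mul_assoc]
  one_mul a := by
    refine X.tw_ext ?_
    rw [tw_mul_val, show (1 : Tw X).val = 1 from rfl, map_one, X.γ_one_left, inv_one, map_one,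
      one_mul, one_mul]
  mul_one a := by
    refine X.tw_ext ?_
    rw [tw_mul_val, show (1 : Tw X).val = 1 from rfl, map_one, X.γ_one_right, inv_one, map_one,
      one_mul, mul_one]
  inv_mul_cancel a := by
    refine X.tw_ext ?_
    rw [tw_mul_val, show (a⁻¹).val = a.val⁻¹ from rfl, inv_mul_cancel, mul_one, map_inv X.π,
      X.γ_inv_left, X.γ_self, inv_one, inv_one, map_one]
    rfl
  mul_comm a b := by
    refine X.tw_ext ?_
    rw [tw_mul_val, tw_mul_val, ← X.β_spec a.val b.val, ← X.γ_sq, X.γ_swap (X.π a.val) (X.π b.val),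
      inv_inv, ← mul_assoc, ← map_mul, inv_mul_cancel_left]

/-- The scalars inside the twisted group. -/
noncomputable def twJ : ℂˣ →* Tw X where
  toFun c := ⟨X.j c⟩
  map_one' := X.tw_ext X.j.map_one
  map_mul' a b := X.tw_ext (by
    rw [tw_mul_val, X.π_j, X.π_j, X.γ_one_left, inv_one, map_one, one_mul, map_mul])

/-- Weyl systems exist. -/
theorem exists_weyl : ∃ W, X.IsWeyl W := by
  classical
  have hinj : Function.Injective X.twJ := fun a b h => X.inj (congrArg Tw.val h)
  obtain ⟨g, hg⟩ := H82.exists_extend_of_divisible (Z := ℂˣ)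
    (fun n hn z => by
      obtain ⟨w, hw⟩ := IsAlgClosed.exists_pow_nat_eq (z : ℂ) (Nat.pos_of_ne_zero hn)
      exact ⟨Units.mk0 w (fun h => z.ne_zero (by rw [← hw, h, zero_pow hn])), Units.ext (by
        rw [Units.val_pow_eq_pow_val]; exact hw)⟩)
    X.twJ.range (MonoidHom.ofInjective hinj).symm.toMonoidHom
  have hgj : ∀ c, g (X.twJ c) = c := fun c => by
    rw [hg ⟨X.twJ c, c, rfl⟩]
    exact (MonoidHom.ofInjective hinj).symm_apply_apply c
  let W0 : E → Tw X := fun x => ⟨X.lift x⟩ * (X.twJ (g ⟨X.lift x⟩))⁻¹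
  have hπ : ∀ x, X.π (W0 x).val = x := fun x => by
    rw [tw_π_mul, show ((X.twJ (g ⟨X.lift x⟩))⁻¹).val = (X.j (g ⟨X.lift x⟩))⁻¹ from rfl,
      map_inv, X.π_j, inv_one, mul_one, X.π_lift]
  have hg1 : ∀ x, g (W0 x) = 1 := fun x => by
    simp only [W0, map_mul, map_inv, hgj, mul_inv_cancel]
  refine ⟨fun x => (W0 x).val, hπ, fun x y => ?_⟩
  have h : W0 x * W0 y = W0 (x * y) := by
    have hker : X.π ((W0 x * W0 y) * (W0 (x * y))⁻¹).val = 1 := by
      rw [tw_π_mul, tw_π_mul, show ((W0 (x * y))⁻¹).val = (W0 (x * y)).val⁻¹ from rfl, map_inv,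
        hπ, hπ, hπ, mul_inv_cancel]
    obtain ⟨c, hc⟩ := (X.ker _).mp hker
    have hc' : X.twJ c = (W0 x * W0 y) * (W0 (x * y))⁻¹ := X.tw_ext hc
    have h1 := congrArg g hc'
    rw [hgj, map_mul, map_mul, map_inv, hg1, hg1, hg1] at h1
    simp only [mul_one, inv_one] at h1
    rw [h1, map_one] at hc'
    exact mul_inv_eq_one.mp hc'.symm
  have h2 := congrArg Tw.val h
  rw [tw_mul_val, hπ, hπ, map_inv, inv_mul_eq_iff_eq_mul] at h2
  exact h2

theorem IsWeyl.map_one {W : E → U} (hW : X.IsWeyl W) : W 1 = 1 := by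
  have h := hW.mul 1 1
  rw [X.γ_one_left, X.j.map_one, one_mul, one_mul] at h
  exact (mul_eq_left (a := W 1)).mp h

/-- Two Weyl systems differ by a linear character. -/
theorem exists_ratio {W W' : E → U} (hW : X.IsWeyl W) (hW' : X.IsWeyl W') :
    ∃ l : E →* ℂˣ, ∀ x, W' x = X.j (l x) * W x := by
  have hex : ∀ x, ∃ c, X.j c = W' x * (W x)⁻¹ := fun x =>
    (X.ker _).mp (by rw [map_mul, map_inv, hW'.section_, hW.section_, mul_inv_cancel])
  choose l hl using hex
  have hl' : ∀ x, W' x = X.j (l x) * W x := fun x => by rw [hl, inv_mul_cancel_right]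
  refine ⟨MonoidHom.mk' l fun x y => X.inj ?_, hl'⟩
  have h := hW'.mul x y
  rw [hl', hl', hl', ← mul_assoc (X.j (X.γ x y)), ← map_mul] at h
  have h2 : X.j (l x) * W x * (X.j (l y) * W y) = X.j (l x * l y * X.γ x y) * W (x * y) := by
    calc X.j (l x) * W x * (X.j (l y) * W y) = X.j (l x) * (W x * X.j (l y)) * W y := by
          simp [mul_assoc]
      _ = X.j (l x) * (X.j (l y) * W x) * W y := by rw [X.central (l y) (W x)]
      _ = X.j (l x * l y) * (W x * W y) := by simp [mul_assoc]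
      _ = _ := by rw [hW.mul, ← mul_assoc, ← map_mul]
  rw [h2] at h
  have h3 := X.inj (mul_right_cancel h)
  rw [mul_comm (X.γ x y)] at h3
  rw [mul_right_cancel h3]

/-- A symmetry of the extension. -/
structure Symm where
  up : U ≃* U
  down : E ≃* E
  comm : ∀ u, X.π (up u) = down (X.π u)
  fix : ∀ c, up (X.j c) = X.j c

theorem γ_symm (a : X.Symm) (x y : E) : X.γ (a.down x) (a.down y) = X.γ x y := by
  obtain ⟨p, rfl⟩ := X.surj x; obtain ⟨q, rfl⟩ := X.surj y
  rw [← a.comm, ← a.comm, γ_eq, γ_eq]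
  congr 1
  refine X.β_unique ?_
  rw [← a.fix, ← map_mul, ← map_mul, ← map_mul, X.β_spec]

theorem IsWeyl.transport {W : E → U} (hW : X.IsWeyl W) (a : X.Symm) :
    X.IsWeyl (fun x => a.up (W (a.down.symm x))) := by
  refine ⟨fun x => ?_, fun x y => ?_⟩
  · simp [a.comm, hW.section_]
  · show a.up (W (a.down.symm x)) * a.up (W (a.down.symm y)) = _
    rw [← map_mul, hW.mul, map_mul, a.fix, map_mul, ← X.γ_symm a, a.down.apply_symm_apply,
      a.down.apply_symm_apply]

/-- A unique Weyl system is fixed by a coprime fixed-point-free group of symmetries, and it is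
respected by all symmetries commuting with the group. -/
theorem exists_fixed_weyl {S : Type*} [Group S] [Finite S] (hco : (Nat.card E).Coprime (Nat.card S))
    (σ : S → X.Symm) (hup : ∀ s t u, (σ (s * t)).up u = (σ s).up ((σ t).up u))
    (hdown : ∀ s t x, (σ (s * t)).down x = (σ s).down ((σ t).down x))
    (hfpf : ∀ x, (∀ s, (σ s).down x = x) → x = 1) :
    ∃ W, X.IsWeyl W ∧ (∀ s x, (σ s).up (W x) = W ((σ s).down x)) ∧
      ∀ a : X.Symm, (∀ s u, a.up ((σ s).up u) = (σ s).up (a.up u)) →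
        (∀ s x, a.down ((σ s).down x) = (σ s).down (a.down x)) →
        ∀ x, a.up (W x) = W (a.down x) := by
  classical
  haveI := X.fin
  haveI := Fintype.ofFinite S
  have hfix : ∀ l : E →* ℂˣ, (∀ s x, l ((σ s).down x) = l x) → l = 1 := by
    intro l hl
    refine MonoidHom.ext fun x => ?_
    have h1 : ∏ s : S, (σ s).down x = 1 := hfpf _ fun t => by
      rw [map_prod]
      exact Fintype.prod_equiv (Equiv.mulLeft t) _ _ fun s => (hdown t s x).symm
    have h2 := congrArg l h1
    rw [map_prod, map_one, Finset.prod_congr rfl (fun s _ => hl s x), Finset.prod_const,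
      Finset.card_univ, ← Nat.card_eq_fintype_card] at h2
    have h3 : l x ^ Nat.card E = 1 := by rw [← map_pow, pow_card_eq_one', map_one]
    have h4 := pow_gcd_eq_one.mpr ⟨h3, h2⟩
    rwa [hco, pow_one] at h4
  obtain ⟨W0, hW0⟩ := X.exists_weyl
  choose lam hlam using fun s => X.exists_ratio hW0 (hW0.transport X (σ s))
  -- cocycle identity
  have hlam' : ∀ s x, (σ s).up (W0 x) = X.j (lam s ((σ s).down x)) * W0 ((σ s).down x) := fun s x => by
    rw [← hlam s, (σ s).down.symm_apply_apply]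
  have hcoc : ∀ s t x, lam (s * t) ((σ s).down ((σ t).down x)) =
      lam t ((σ t).down x) * lam s ((σ s).down ((σ t).down x)) := by
    intro s t x
    apply X.inj
    apply mul_right_cancel (b := W0 ((σ s).down ((σ t).down x)))
    rw [← hdown, ← hlam', hup, hlam', map_mul, (σ s).fix, hlam', map_mul, hdown, mul_assoc]
  set Λ : E →* ℂˣ := ∏ t : S, MonoidHom.mk' (fun x => lam t ((σ t).down x))
    (fun x y => by simp) with hΛ
  have hΛap : ∀ x, Λ x = ∏ t : S, lam t ((σ t).down x) := fun x => by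
    rw [hΛ, MonoidHom.finsetProd_apply]; rfl
  have hkey : ∀ s x, Λ x = lam s ((σ s).down x) ^ Nat.card S * Λ ((σ s).down x) := by
    intro s x
    rw [hΛap, hΛap, ← Equiv.prod_comp (Equiv.mulRight s)]
    simp only [Equiv.coe_mulRight]
    rw [Finset.prod_congr rfl (fun t _ => by rw [hdown, hcoc t s]), Finset.prod_mul_distrib,
      Finset.prod_const, Finset.card_univ, ← Nat.card_eq_fintype_card]
  obtain ⟨i, hi⟩ : ∃ i : ℕ, ∀ c : ℂˣ, c ^ Nat.card E = 1 → (c ^ Nat.card S) ^ i = c := by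
    rcases Nat.lt_or_ge 1 (Nat.card E) with h1 | h1
    · obtain ⟨i, -, hi⟩ := Nat.exists_mul_mod_eq_one_of_coprime hco.symm h1
      refine ⟨i, fun c hc => ?_⟩
      rw [← pow_mul, ← Nat.div_add_mod (Nat.card S * i) (Nat.card E), hi, pow_add, pow_mul, hc,
        one_pow, one_mul, pow_one]
    · refine ⟨0, fun c hc => ?_⟩
      rw [show Nat.card E = 1 by have := Nat.card_pos (α := E); omega, pow_one] at hc
      rw [hc, pow_zero]
  set μ : E →* ℂˣ := (Λ ^ i)⁻¹ with hμ
  have hμkey : ∀ s x, μ ((σ s).down x) = μ x * lam s ((σ s).down x) := by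
    intro s x
    show (Λ _ ^ i)⁻¹ = (Λ x ^ i)⁻¹ * lam s _
    rw [hkey s x, mul_pow, hi _ (by rw [← map_pow, pow_card_eq_one', map_one]), mul_inv,
      mul_comm (lam s _)⁻¹, inv_mul_cancel_right]
  set W := fun x => X.j (μ x) * W0 x with hW
  have hWW : X.IsWeyl W := by
    refine ⟨fun x => by simp [hW, X.π_j, hW0.section_], fun x y => ?_⟩
    show X.j (μ x) * W0 x * (X.j (μ y) * W0 y) = X.j (X.γ x y) * (X.j (μ (x * y)) * W0 (x * y))
    calc _ = X.j (μ x) * (W0 x * X.j (μ y)) * W0 y := by simp [mul_assoc]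
      _ = X.j (μ x * μ y) * (W0 x * W0 y) := by rw [← X.central (μ y) (W0 x)]; simp [mul_assoc]
      _ = _ := by rw [hW0.mul, ← mul_assoc, ← map_mul, ← mul_assoc, ← map_mul, map_mul μ, mul_comm (μ x * μ y), map_mul X.j (X.γ x y)]
  have hWs : ∀ s x, (σ s).up (W x) = W ((σ s).down x) := by
    intro s x
    show (σ s).up (X.j (μ x) * W0 x) = X.j (μ ((σ s).down x)) * W0 ((σ s).down x)
    rw [map_mul, (σ s).fix, hlam', ← mul_assoc, ← map_mul, hμkey s x]
  refine ⟨W, hWW, hWs, fun a hau had x => ?_⟩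
  obtain ⟨l, hl⟩ := X.exists_ratio hWW (hWW.transport X a)
  have hl1 : l = 1 := by
    refine hfix l fun s y => X.inj (mul_right_cancel (b := W ((σ s).down y)) ?_)
    rw [← hl, show a.down.symm ((σ s).down y) = (σ s).down (a.down.symm y) from a.down.injective (by
      rw [had, a.down.apply_symm_apply, a.down.apply_symm_apply]), ← hWs, hau, hl, map_mul,
      (σ s).fix, hWs]
  have := hl (a.down x)
  rwa [hl1, MonoidHom.one_apply, map_one, one_mul, a.down.symm_apply_apply] at this

end Ext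

end Cfsg.Agent.H44.Parity
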