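import Mathlib
import Cfsg.Agent.H44.Parity.Weyl

/-!
# The centralizer of a normal subgroup in the group algebra over an invariant character
-/

set_option autoImplicit false

namespace Cfsg.Agent.H44.Parity

variable {G : Type*} [Group G] [Fintype G] {L : Subgroup G} [L.Normal] [Fintype L]

/-- An irreducible representation of `L` with `G`-invariant character. -/
structure InvRep (L : Subgroup G) (d : ℕ) where
  θ : L →* Matrix (Fin d) (Fin d) ℂ
  dpos : 0 < d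
  schur : ∀ X, (∀ l, θ l * X = X * θ l) → ∃ c : ℂ, X = c • 1
  inv : ∀ (g : G) (l l' : L), (l' : G) = g * l * g⁻¹ → (θ l').trace = (θ l).trace

namespace InvRep

variable {d : ℕ} (R : InvRep L d)

include R in
theorem d_ne : (d : ℂ) ≠ 0 := Nat.cast_ne_zero.mpr R.dpos.ne'

theorem θ_inv_mul (l : L) : R.θ l⁻¹ * R.θ l = 1 := by rw [← map_mul, inv_mul_cancel, map_one]

theorem θ_mul_inv (l : L) : R.θ l * R.θ l⁻¹ = 1 := by rw [← map_mul, mul_inv_cancel, map_one]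

theorem average (X : Matrix (Fin d) (Fin d) ℂ) :
    ∑ l : L, R.θ l * X * R.θ l⁻¹ = ((Nat.card L : ℂ) * X.trace / d) • 1 := by
  obtain ⟨c, hc⟩ := R.schur (∑ l : L, R.θ l * X * R.θ l⁻¹) fun a => by
    rw [Finset.mul_sum, Finset.sum_mul]
    refine Fintype.sum_equiv (Equiv.mulLeft a) _ _ fun l => ?_
    show R.θ a * (R.θ l * X * R.θ l⁻¹) = R.θ (a * l) * X * R.θ (a * l)⁻¹ * R.θ a
    rw [mul_inv_rev, map_mul, map_mul, mul_assoc _ (R.θ l⁻¹ * R.θ a⁻¹), mul_assoc (R.θ l⁻¹),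
      R.θ_inv_mul, mul_one]
    simp only [mul_assoc]
  have ht := congrArg Matrix.trace hc
  rw [Matrix.trace_sum, Matrix.trace_smul, Matrix.trace_one, Fintype.card_fin,
    Finset.sum_congr rfl (fun l _ => by rw [Matrix.trace_mul_cycle, R.θ_inv_mul, one_mul]),
    Finset.sum_const, Finset.card_univ, nsmul_eq_mul, ← Nat.card_eq_fintype_card, smul_eq_mul] at ht
  rw [hc, ht, mul_div_cancel_right₀ _ R.d_ne]

theorem entries (a b c e : Fin d) : ∑ l : L, R.θ l a b * R.θ l⁻¹ c e =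
    if b = c ∧ a = e then (Nat.card L : ℂ) / d else 0 := by
  have h := congrFun (congrFun (R.average (Matrix.single b c 1)) a) e
  rw [Matrix.sum_apply, Matrix.smul_apply, smul_eq_mul] at h
  rw [Finset.sum_congr rfl (fun l _ => ?_), h]
  · by_cases hbc : b = c
    · subst hbc
      by_cases hae : a = e
      · subst hae; simp [Matrix.trace_single_eq_same]
      · simp [hae, Matrix.one_apply_ne hae]
    · simp [hbc, Matrix.trace_single_eq_of_ne b c (1 : ℂ) hbc]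
  · simp [Matrix.mul_apply, Matrix.single_apply, ite_and, Finset.sum_ite_eq, Finset.sum_ite_irrel]

theorem orth (A : Matrix (Fin d) (Fin d) ℂ) :
    ∑ l : L, (A * R.θ l⁻¹).trace • R.θ l = ((Nat.card L : ℂ) / d) • A := by
  ext a b
  simp only [Matrix.sum_apply, Matrix.smul_apply, smul_eq_mul, Matrix.trace, Matrix.diag_apply,
    Matrix.mul_apply, Finset.sum_mul]
  rw [Finset.sum_comm]
  rw [Finset.sum_congr rfl fun e _ => Finset.sum_comm]
  rw [Finset.sum_congr rfl fun e _ => Finset.sum_congr rfl fun c _ =>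
    show ∑ l : L, A e c * R.θ l⁻¹ c e * R.θ l a b =
        A e c * if b = c ∧ a = e then (Nat.card L : ℂ) / d else 0 by
      rw [← R.entries, Finset.mul_sum]
      exact Finset.sum_congr rfl fun l _ => by ring]
  simp [ite_and, mul_comm]

theorem trace_norm : ∑ l : L, (R.θ l⁻¹).trace * (R.θ l).trace = Nat.card L := by
  have h := congrArg Matrix.trace (R.orth 1)
  simp only [one_mul, Matrix.trace_sum, Matrix.trace_smul, smul_eq_mul, Matrix.trace_one,
    Fintype.card_fin] at h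
  rw [h, div_mul_cancel₀ _ R.d_ne]

/-- Intertwiners for automorphisms preserving the character. -/
theorem exists_intertwiner (α : L →* L) (hα : ∀ l, (R.θ (α l)).trace = (R.θ l).trace) :
    ∃ Q : (Matrix (Fin d) (Fin d) ℂ)ˣ, ∀ l, R.θ (α l) * Q = Q * R.θ l := by
  have hcard : (Nat.card L : ℂ) ≠ 0 := Nat.cast_ne_zero.mpr Nat.card_pos.ne'
  obtain ⟨i, j, hij⟩ : ∃ i j, ((∑ l : L, R.θ (α l) * Matrix.single i j 1 * R.θ l⁻¹ : Matrix (Fin d) (Fin d) ℂ) i j) ≠ 0 := by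
    by_contra hcon
    push Not at hcon
    refine hcard (R.trace_norm.symm.trans ?_)
    have h : ∑ i, ∑ j, ((∑ l : L, R.θ (α l) * Matrix.single i j 1 * R.θ l⁻¹ : Matrix (Fin d) (Fin d) ℂ) i j) = 0 := by
      simp [hcon]
    rw [← h]
    simp only [Matrix.sum_apply]
    rw [Finset.sum_congr rfl fun i _ => Finset.sum_comm]
    rw [Finset.sum_comm]
    refine Finset.sum_congr rfl fun l _ => ?_
    rw [← hα l, mul_comm, Matrix.trace, Matrix.trace, Finset.sum_mul_sum]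
    refine Finset.sum_congr rfl fun a _ => Finset.sum_congr rfl fun b _ => ?_
    simp [Matrix.mul_apply, Matrix.single_apply, ite_and, Finset.sum_ite_eq, Finset.sum_ite_irrel]
  set X := ∑ l : L, R.θ (α l) * Matrix.single i j 1 * R.θ l⁻¹ with hX
  have hcom : ∀ a, R.θ (α a) * X = X * R.θ a := by
    intro a
    rw [hX, Finset.mul_sum, Finset.sum_mul]
    refine Fintype.sum_equiv (Equiv.mulLeft a) _ _ fun l => ?_
    show R.θ (α a) * (R.θ (α l) * _ * R.θ l⁻¹) = R.θ (α (a * l)) * _ * R.θ (a * l)⁻¹ * R.θ a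
    rw [mul_inv_rev, map_mul, map_mul, map_mul, mul_assoc _ (R.θ l⁻¹ * R.θ a⁻¹),
      mul_assoc (R.θ l⁻¹), R.θ_inv_mul, mul_one]
    simp only [mul_assoc]
  set Y := ∑ l : L, R.θ l * Matrix.single j i 1 * R.θ (α l⁻¹) with hY
  have hYcom : ∀ a, R.θ a * Y = Y * R.θ (α a) := by
    intro a
    rw [hY, Finset.mul_sum, Finset.sum_mul]
    refine Fintype.sum_equiv (Equiv.mulLeft a) _ _ fun l => ?_
    show R.θ a * (R.θ l * _ * R.θ (α l⁻¹)) = R.θ (a * l) * _ * R.θ (α (a * l)⁻¹) * R.θ (α a)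
    rw [mul_assoc (R.θ (a * l) * _), ← map_mul, ← map_mul, mul_inv_rev, inv_mul_cancel_right,
      map_mul]
    simp only [mul_assoc]
  obtain ⟨c, hc⟩ := R.schur (Y * X) fun a => by
    rw [← mul_assoc, hYcom, mul_assoc, hcom, mul_assoc]
  have hc0 : c ≠ 0 := by
    intro h0
    rw [h0, zero_smul] at hc
    have ht := congrArg Matrix.trace hc
    rw [hY, Finset.sum_mul, Matrix.trace_sum, Matrix.trace_zero,
      Finset.sum_congr rfl (fun l _ => by
        rw [mul_assoc, hcom, ← mul_assoc, Matrix.trace_mul_comm, ← mul_assoc, ← mul_assoc,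
          R.θ_inv_mul, one_mul, Matrix.trace_single_mul, one_smul]), Finset.sum_const,
      Finset.card_univ, nsmul_eq_mul, ← Nat.card_eq_fintype_card] at ht
    exact hij ((mul_eq_zero.mp ht).resolve_left hcard)
  have h1 : (c⁻¹ • Y) * X = 1 := by rw [smul_mul_assoc, hc, smul_smul, inv_mul_cancel₀ hc0, one_smul]
  exact ⟨⟨X, c⁻¹ • Y, mul_eq_one_comm.mp h1, h1⟩, hcom⟩

/-- Conjugation by an element of `G` as an endomorphism of `L`. -/
def conjL (g : G) : L →* L := ((MulAut.conjNormal g : MulAut L) : L →* L)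

theorem conjL_val (g : G) (l : L) : ((conjL g l : L) : G) = g * l * g⁻¹ :=
  MulAut.conjNormal_apply g l

/-- The intertwiner of an element. -/
noncomputable def Q (g : G) : (Matrix (Fin d) (Fin d) ℂ)ˣ :=
  (R.exists_intertwiner (conjL g) fun l => R.inv g l _ (conjL_val g l)).choose

theorem Q_spec (g : G) (l : L) :
    R.θ (conjL g l) * (R.Q g : Matrix (Fin d) (Fin d) ℂ) = (R.Q g : Matrix (Fin d) (Fin d) ℂ) * R.θ l :=
  (R.exists_intertwiner (conjL g) fun l => R.inv g l _ (conjL_val g l)).choose_spec l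

/-- The embedding of group elements. -/
noncomputable abbrev ν : G →* MonoidAlgebra ℂ G := MonoidAlgebra.of ℂ G

/-- The coefficient function of the embedding of the endomorphisms. -/
noncomputable def coef (A : Matrix (Fin d) (Fin d) ℂ) (l : L) : ℂ :=
  (d : ℂ) / Nat.card L * (A * R.θ l⁻¹).trace

/-- The embedding of the endomorphisms into the group algebra. -/
noncomputable def Λ : Matrix (Fin d) (Fin d) ℂ →ₗ[ℂ] MonoidAlgebra ℂ G where
  toFun A := ∑ l : L, R.coef A l • ν (l : G)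
  map_add' A B := by
    simp only [coef, add_mul, Matrix.trace_add, mul_add, add_smul, Finset.sum_add_distrib]
  map_smul' c A := by
    simp only [coef, smul_mul_assoc, Matrix.trace_smul, smul_eq_mul, RingHom.id_apply,
      Finset.smul_sum, smul_smul]
    exact Finset.sum_congr rfl fun l _ => by ring_nf

theorem Λ_apply (A : Matrix (Fin d) (Fin d) ℂ) : R.Λ A = ∑ l : L, R.coef A l • ν (l : G) := rfl

theorem sum_coef (A : Matrix (Fin d) (Fin d) ℂ) : ∑ l : L, R.coef A l • R.θ l = A := by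
  have : ∀ l : L, R.coef A l • R.θ l = ((d : ℂ) / Nat.card L) • ((A * R.θ l⁻¹).trace • R.θ l) :=
    fun l => by rw [smul_smul]; rfl
  rw [Finset.sum_congr rfl (fun l _ => this l), ← Finset.smul_sum, R.orth, smul_smul]
  have hL : (Nat.card L : ℂ) ≠ 0 := Nat.cast_ne_zero.mpr Nat.card_pos.ne'
  rw [div_mul_div_comm, mul_comm, div_self (mul_ne_zero hL R.d_ne), one_smul]

theorem coeff_Λ (A : Matrix (Fin d) (Fin d) ℂ) (l : L) : (R.Λ A).coeff (l : G) = R.coef A l := by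
  classical
  rw [Λ_apply, MonoidAlgebra.coeff_sum]
  simp [MonoidAlgebra.of_apply, Finsupp.single_apply]

theorem Λ_injective : Function.Injective R.Λ := fun A B h => by
  rw [← R.sum_coef A, ← R.sum_coef B]
  exact Finset.sum_congr rfl fun l _ => by rw [← R.coeff_Λ, h, R.coeff_Λ]

theorem ν_mul_Λ (a : L) (A : Matrix (Fin d) (Fin d) ℂ) : ν (a : G) * R.Λ A = R.Λ (R.θ a * A) := by
  rw [Λ_apply, Λ_apply, Finset.mul_sum]
  refine Fintype.sum_equiv (Equiv.mulLeft a) _ _ fun l => ?_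
  rw [mul_smul_comm, ← map_mul, Equiv.coe_mulLeft]
  congr 1
  rw [coef, coef]
  congr 1
  rw [mul_inv_rev, map_mul, Matrix.trace_mul_comm (R.θ a * A), mul_assoc, ← mul_assoc (R.θ a⁻¹),
    R.θ_inv_mul, one_mul, Matrix.trace_mul_comm]

theorem Λ_mul_ν (a : L) (A : Matrix (Fin d) (Fin d) ℂ) : R.Λ A * ν (a : G) = R.Λ (A * R.θ a) := by
  rw [Λ_apply, Λ_apply, Finset.sum_mul]
  refine Fintype.sum_equiv (Equiv.mulRight a) _ _ fun l => ?_
  rw [smul_mul_assoc, ← map_mul, Equiv.coe_mulRight]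
  congr 1
  rw [coef, coef]
  congr 1
  rw [mul_inv_rev, map_mul, mul_assoc, ← mul_assoc (R.θ a), R.θ_mul_inv, one_mul]

theorem Λ_mul (A B : Matrix (Fin d) (Fin d) ℂ) : R.Λ A * R.Λ B = R.Λ (A * B) := by
  conv_lhs => rw [R.Λ_apply A, Finset.sum_mul]
  conv_rhs => rw [← R.sum_coef A, Finset.sum_mul, map_sum]
  refine Finset.sum_congr rfl fun l _ => ?_
  rw [smul_mul_assoc, R.ν_mul_Λ, smul_mul_assoc, map_smul]

/-- The central idempotent. -/
noncomputable def e : MonoidAlgebra ℂ G := R.Λ 1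

theorem map_Λ (F : MonoidAlgebra ℂ G →ₗ[ℂ] MonoidAlgebra ℂ G) (α : L ≃* L)
    (hF : ∀ l : L, F (ν (l : G)) = ν (α l : G)) (P : (Matrix (Fin d) (Fin d) ℂ)ˣ)
    (hP : ∀ l, R.θ (α l) * (P : Matrix (Fin d) (Fin d) ℂ) = (P : Matrix (Fin d) (Fin d) ℂ) * R.θ l)
    (A : Matrix (Fin d) (Fin d) ℂ) :
    F (R.Λ A) = R.Λ ((P : Matrix (Fin d) (Fin d) ℂ) * A * (P⁻¹ : (Matrix (Fin d) (Fin d) ℂ)ˣ)) := by
  rw [Λ_apply, Λ_apply, map_sum]
  refine Fintype.sum_equiv α.toEquiv _ _ fun l => ?_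
  rw [map_smul, hF]
  show R.coef A l • ν (α l : G) = R.coef _ (α l) • ν (α l : G)
  congr 1
  rw [coef, coef]
  congr 1
  rw [← map_inv]
  have h : R.θ (α l⁻¹) = (P : Matrix (Fin d) (Fin d) ℂ) * R.θ l⁻¹ * (P⁻¹ : (Matrix (Fin d) (Fin d) ℂ)ˣ) := by
    rw [← hP, mul_assoc, Units.mul_inv, mul_one]
  rw [h]
  simp only [mul_assoc, Units.inv_mul_cancel_left]
  conv_rhs => rw [Matrix.trace_mul_comm]
  simp only [mul_assoc, Units.inv_mul, mul_one]

theorem ν_conj_Λ (g : G) (A : Matrix (Fin d) (Fin d) ℂ) : ν g * R.Λ A =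
    R.Λ ((R.Q g : Matrix (Fin d) (Fin d) ℂ) * A * ((R.Q g)⁻¹ : (Matrix (Fin d) (Fin d) ℂ)ˣ)) * ν g := by
  rw [← R.map_Λ (LinearMap.mulLeftRight ℂ (ν g, ν g⁻¹)) (MulAut.conjNormal g : MulAut L)
    (fun l => by
      rw [LinearMap.mulLeftRight_apply, ← map_mul, ← map_mul, MulAut.conjNormal_apply])
    (R.Q g) (R.Q_spec g) A, LinearMap.mulLeftRight_apply, mul_assoc, ← map_mul ν g⁻¹, inv_mul_cancel,
    map_one, mul_one]

theorem e_comm (a : MonoidAlgebra ℂ G) : R.e * a = a * R.e := by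
  refine MonoidAlgebra.induction_on (motive := fun a => R.e * a = a * R.e) a (fun g => ?_)
    (fun x y hx hy => ?_) (fun c x hx => ?_)
  · rw [e, show MonoidAlgebra.of ℂ G g = ν g from rfl, R.ν_conj_Λ g 1, mul_one, Units.mul_inv]
  · rw [mul_add, add_mul, hx, hy]
  · rw [mul_smul_comm, smul_mul_assoc, hx]

theorem e_mul_Λ (A : Matrix (Fin d) (Fin d) ℂ) : R.e * R.Λ A = R.Λ A := by rw [e, R.Λ_mul, one_mul]

theorem Λ_mul_e (A : Matrix (Fin d) (Fin d) ℂ) : R.Λ A * R.e = R.Λ A := by rw [e, R.Λ_mul, mul_one]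

theorem e_idem : R.e * R.e = R.e := R.e_mul_Λ 1

/-- The element of the centralizer over a coset. -/
noncomputable def u (k : G) : MonoidAlgebra ℂ G :=
  ν k * R.Λ ((R.Q k)⁻¹ : (Matrix (Fin d) (Fin d) ℂ)ˣ)

/-- Its inverse. -/
noncomputable def u' (k : G) : MonoidAlgebra ℂ G :=
  R.Λ (R.Q k : Matrix (Fin d) (Fin d) ℂ) * ν k⁻¹

theorem u'_mul_u (k : G) : R.u' k * R.u k = R.e := by
  rw [u, u', mul_assoc, ← mul_assoc (ν k⁻¹), ← map_mul, inv_mul_cancel, map_one, one_mul, R.Λ_mul,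
    Units.mul_inv]
  rfl

theorem u_mul_u' (k : G) : R.u k * R.u' k = R.e := by
  rw [u, u', ← mul_assoc, mul_assoc (ν k), R.Λ_mul, Units.inv_mul, ← show R.e = R.Λ 1 from rfl,
    ← R.e_comm, mul_assoc, ← map_mul, mul_inv_cancel, map_one, mul_one]

theorem u_comm_L (k : G) (a : L) : ν (a : G) * R.u k = R.u k * ν (a : G) := by
  rw [u, mul_assoc (ν k), R.Λ_mul_ν]
  set b : L := conjL k⁻¹ a with hb
  have hbv : (a : G) * k = k * b := by rw [hb, conjL_val]; group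
  rw [← mul_assoc, ← map_mul, hbv, map_mul, mul_assoc, R.ν_mul_Λ]
  congr 2
  have hsp := R.Q_spec k b
  have hab : conjL k b = a := Subtype.ext (by rw [conjL_val, hb, conjL_val]; group)
  rw [hab] at hsp
  rw [Units.eq_inv_mul_iff_mul_eq, ← mul_assoc, ← hsp, mul_assoc, Units.mul_inv, mul_one]

/-- An element over a coset commuting with `L` is a multiple of the standard one. -/
theorem eq_smul_u (k : G) (A : Matrix (Fin d) (Fin d) ℂ)
    (h : ∀ a : L, ν (a : G) * (ν k * R.Λ A) = (ν k * R.Λ A) * ν (a : G)) :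
    ∃ c : ℂ, ν k * R.Λ A = c • R.u k := by
  set B := (R.Q k : Matrix (Fin d) (Fin d) ℂ) * A with hB
  have hu : R.u' k * (ν k * R.Λ A) = R.Λ B := by
    rw [u', mul_assoc, ← mul_assoc (ν k⁻¹), ← map_mul, inv_mul_cancel, map_one, one_mul, R.Λ_mul]
  have hcom' : ∀ a : L, ν (a : G) * R.u' k = R.u' k * ν (a : G) := by
    intro a
    calc ν (a : G) * R.u' k = (R.u' k * R.u k) * (ν (a : G) * R.u' k) := by
          rw [R.u'_mul_u, u', ← mul_assoc, R.ν_mul_Λ, ← mul_assoc, R.e_mul_Λ]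
      _ = R.u' k * (ν (a : G) * R.u k) * R.u' k := by
          rw [R.u_comm_L]; simp only [mul_assoc]
      _ = R.u' k * ν (a : G) * (R.u k * R.u' k) := by simp only [mul_assoc]
      _ = _ := by
          rw [R.u_mul_u', mul_assoc, ← R.e_comm, ← mul_assoc, u', mul_assoc (R.Λ _) (ν k⁻¹) R.e,
            ← R.e_comm, ← mul_assoc (R.Λ _) R.e, R.Λ_mul_e]
  obtain ⟨c, hc⟩ := R.schur B fun a => R.Λ_injective (by
    rw [← R.ν_mul_Λ, ← R.Λ_mul_ν, ← hu, ← mul_assoc, hcom', mul_assoc, h]; simp only [mul_assoc])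
  refine ⟨c, ?_⟩
  have hA : A = c • (((R.Q k)⁻¹ : (Matrix (Fin d) (Fin d) ℂ)ˣ) : Matrix (Fin d) (Fin d) ℂ) := by
    rw [hB] at hc
    calc A = ((R.Q k)⁻¹ : (Matrix (Fin d) (Fin d) ℂ)ˣ) * ((R.Q k : Matrix (Fin d) (Fin d) ℂ) * A) :=
          (Units.inv_mul_cancel_left _ _).symm
      _ = _ := by rw [hc, Matrix.mul_smul, mul_one]
  rw [hA, map_smul, mul_smul_comm]
  rfl

theorem u_mul_u_eq (k m : G) : ∃ c : ℂ, R.u k * R.u m = c • R.u (k * m) := by
  obtain ⟨A, hA⟩ : ∃ A, R.u k * R.u m = ν (k * m) * R.Λ A := by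
    refine ⟨((R.Q m⁻¹ : (Matrix (Fin d) (Fin d) ℂ)ˣ) : Matrix (Fin d) (Fin d) ℂ) *
      ((R.Q k)⁻¹ : (Matrix (Fin d) (Fin d) ℂ)ˣ) * ((R.Q m⁻¹)⁻¹ : (Matrix (Fin d) (Fin d) ℂ)ˣ) *
      ((R.Q m)⁻¹ : (Matrix (Fin d) (Fin d) ℂ)ˣ), ?_⟩
    have h := R.ν_conj_Λ m⁻¹ ((R.Q k)⁻¹ : (Matrix (Fin d) (Fin d) ℂ)ˣ)
    have hh : ν m⁻¹ * R.Λ ((R.Q k)⁻¹ : (Matrix (Fin d) (Fin d) ℂ)ˣ) * ν m =
        R.Λ ((R.Q m⁻¹ : Matrix (Fin d) (Fin d) ℂ) * ((R.Q k)⁻¹ : (Matrix (Fin d) (Fin d) ℂ)ˣ) *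
          ((R.Q m⁻¹)⁻¹ : (Matrix (Fin d) (Fin d) ℂ)ˣ)) := by
      rw [h, mul_assoc, ← map_mul, inv_mul_cancel, map_one, mul_one]
    rw [← R.Λ_mul, ← hh, map_mul, u, u]
    calc ν k * R.Λ ((R.Q k)⁻¹ : (Matrix (Fin d) (Fin d) ℂ)ˣ) *
          (ν m * R.Λ ((R.Q m)⁻¹ : (Matrix (Fin d) (Fin d) ℂ)ˣ))
        = ν k * (ν m * ν m⁻¹) * R.Λ ((R.Q k)⁻¹ : (Matrix (Fin d) (Fin d) ℂ)ˣ) *
          (ν m * R.Λ ((R.Q m)⁻¹ : (Matrix (Fin d) (Fin d) ℂ)ˣ)) := by
          rw [← map_mul ν m, mul_inv_cancel, map_one, mul_one]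
      _ = _ := by simp only [mul_assoc]
  obtain ⟨c, hc⟩ := R.eq_smul_u (k * m) A fun a => by
    rw [← hA, ← mul_assoc, R.u_comm_L, mul_assoc, R.u_comm_L, mul_assoc]
  exact ⟨c, hA.trans hc⟩

theorem u_ne_zero (k : G) : R.u k ≠ 0 := by
  intro h
  have h2 := R.u'_mul_u k
  rw [h, mul_zero, e, ← map_zero R.Λ] at h2
  have h3 := congrArg Matrix.trace (R.Λ_injective h2)
  rw [Matrix.trace_zero, Matrix.trace_one, Fintype.card_fin] at h3
  exact R.d_ne h3.symm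

theorem u_of_mem {k : G} (hk : k ∈ L) : ∃ c : ℂ, c ≠ 0 ∧ R.u k = c • R.e := by
  have h1 : R.u k = ν (1 : G) * R.Λ (R.θ ⟨k, hk⟩ * ((R.Q k)⁻¹ : (Matrix (Fin d) (Fin d) ℂ)ˣ)) := by
    rw [map_one, one_mul, ← R.ν_mul_Λ]; rfl
  obtain ⟨c1, hc1⟩ := R.eq_smul_u 1 _ (fun a => by rw [← h1]; exact R.u_comm_L k a)
  obtain ⟨c0, hc0⟩ := R.eq_smul_u 1 1 (fun a => by
    rw [map_one, one_mul, show R.Λ 1 = R.e from rfl, R.e_comm])
  rw [map_one, one_mul, show R.Λ 1 = R.e from rfl] at hc0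
  have hc0' : c0 ≠ 0 := by
    intro h
    rw [h, zero_smul] at hc0
    exact R.u_ne_zero k (by
      rw [u, ← R.Λ_mul_e, hc0, mul_zero, mul_zero])
  refine ⟨c1 * c0⁻¹, ?_, ?_⟩
  · intro h
    rw [mul_eq_zero, inv_eq_zero] at h
    exact R.u_ne_zero k (by rw [h1, hc1, h.resolve_right hc0', zero_smul])
  · rw [h1, hc1, hc0, smul_smul, mul_assoc, inv_mul_cancel₀ hc0', mul_one]

end InvRep

end Cfsg.Agent.H44.Parity
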