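import Cfsg.Agent.H44.Parity.Main
import Cfsg.Agent.H20.FixedPoints
import Cfsg.Agent.H43.SubConj

/-!
# The setup of the correspondence inside an ambient group
-/

set_option autoImplicit false

namespace Cfsg.Agent.H44.Parity

variable {Γ : Type*} [Group Γ]

/-- Conjugation by a group normalising a subgroup. -/
def conjAct (G S : Subgroup Γ) (hnorm : ∀ s ∈ S, ∀ g ∈ G, s * g * s⁻¹ ∈ G) : S →* MulAut G where
  toFun s :=
    { toFun := fun g => ⟨s * g * (s : Γ)⁻¹, hnorm s s.2 g g.2⟩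
      invFun := fun g => ⟨(s : Γ)⁻¹ * g * s, by simpa using hnorm _ (inv_mem s.2) g g.2⟩
      left_inv := fun g => Subtype.ext (by simp [mul_assoc])
      right_inv := fun g => Subtype.ext (by simp [mul_assoc])
      map_mul' := fun a b => Subtype.ext (by simp [mul_assoc]) }
  map_one' := MulEquiv.ext fun g => Subtype.ext (by simp)
  map_mul' s t := MulEquiv.ext fun g => Subtype.ext (by simp [mul_assoc])

theorem conjAct_val (G S : Subgroup Γ) (hnorm : ∀ s ∈ S, ∀ g ∈ G, s * g * s⁻¹ ∈ G) (s : S) (g : G) :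
    ((conjAct G S hnorm s g : G) : Γ) = s * g * (s : Γ)⁻¹ := rfl

/-- The setup exists, with the prescribed complement. -/
theorem exists_setup [Finite Γ] (G S C K L H : Subgroup Γ)
    (hnorm : ∀ s ∈ S, ∀ g ∈ G, s * g * s⁻¹ ∈ G) (hcop : (Nat.card G).Coprime (Nat.card S))
    (hGsolv : Group.IsSolvable G) (hodd : Odd (Nat.card G))
    (hC : C = G ⊓ Subgroup.centralizer (S : Set Γ)) (hLK : L ≤ K) (hKG : K ≤ G)
    (hKn : ∀ g ∈ G, ∀ k ∈ K, g * k * g⁻¹ ∈ K) (hLn : ∀ g ∈ G, ∀ l ∈ L, g * l * g⁻¹ ∈ L)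
    (hKS : ∀ s ∈ S, ∀ k ∈ K, s * k * s⁻¹ ∈ K) (hLS : ∀ s ∈ S, ∀ l ∈ L, s * l * s⁻¹ ∈ L)
    (hab : ∀ a ∈ K, ∀ b ∈ K, a * b * a⁻¹ * b⁻¹ ∈ L) (hGKC : K ⊔ C = G) (hH : H = L ⊔ C) :
    ∃ st : Setup G S (L.subgroupOf G), st.H = H.subgroupOf G ∧ st.act = conjAct G S hnorm := by
  classical
  haveI : Fintype S := Fintype.ofFinite S
  have hCG : C ≤ G := hC ▸ inf_le_left
  have hLG : L ≤ G := hLK.trans hKG
  have hfixC : ∀ c : G, (c : Γ) ∈ C → ∀ s, conjAct G S hnorm s c = c := by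
    intro c hc s
    rw [hC] at hc
    refine Subtype.ext ?_
    rw [conjAct_val, Subgroup.mem_centralizer_iff.mp hc.2 s s.2, mul_inv_cancel_right]
  have hdec : ∀ (M : Subgroup Γ), M ≤ G → (∀ g ∈ G, ∀ m ∈ M, g * m * g⁻¹ ∈ M) →
      ∀ x ∈ M ⊔ C, ∃ m ∈ M, ∃ c ∈ C, x = m * c := by
    intro M hMG hMn x hx
    rw [← SetLike.mem_coe, Subgroup.coe_mul_of_right_le_normalizer_left M C (by
      intro c hc
      rw [Subgroup.mem_normalizer_iff]
      intro m
      refine ⟨hMn c (hCG hc) m, fun hm => ?_⟩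
      have := hMn c⁻¹ (inv_mem (hCG hc)) _ hm
      simpa [mul_assoc] using this)] at hx
    obtain ⟨m, hm, c, hc, e⟩ := Set.mem_mul.mp hx
    exact ⟨m, hm, c, hc, e.symm⟩
  set L' := L.subgroupOf G
  set K' := K.subgroupOf G with hK'
  set σ := conjAct G S hnorm with hσ
  haveI hL'n : L'.Normal := ⟨fun l hl g => hLn g g.2 l hl⟩
  haveI : (L'.subgroupOf K').Normal := hL'n.subgroupOf K'
  letI : CommGroup (K' ⧸ L'.subgroupOf K') :=
    { (inferInstance : Group (K' ⧸ L'.subgroupOf K')) with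
      mul_comm := by
        intro a b
        obtain ⟨a, rfl⟩ := QuotientGroup.mk_surjective a
        obtain ⟨b, rfl⟩ := QuotientGroup.mk_surjective b
        show ((a * b : K') : K' ⧸ L'.subgroupOf K') = ((b * a : K') : K' ⧸ L'.subgroupOf K')
        refine QuotientGroup.eq.mpr ?_
        rw [Subgroup.mem_subgroupOf]
        show (((a * b)⁻¹ * (b * a) : K') : G).1 ∈ L
        have h := hab _ (inv_mem b.2) _ (inv_mem a.2)
        simpa [mul_assoc] using h }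
  let q : K' →* K' ⧸ L'.subgroupOf K' := QuotientGroup.mk' _
  have hq : ∀ k : K', q k = 1 ↔ ((k : G) : Γ) ∈ L := fun k => by
    rw [QuotientGroup.mk'_apply, QuotientGroup.eq_one_iff]; rfl
  have hσK : ∀ s, ∀ k : K', σ s k ∈ K' := fun s k => hKS s s.2 _ k.2
  let τ : S → K' → K' := fun s k => ⟨σ s k, hσK s k⟩
  have hτmul : ∀ s k k', τ s (k * k') = τ s k * τ s k' := fun s k k' => Subtype.ext (map_mul (σ s) _ _)
  have hτcomp : ∀ s t k, τ (s * t) k = τ s (τ t k) := fun s t k => Subtype.ext (by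
    show σ (s * t) (k : G) = σ s (σ t k)
    rw [map_mul, MulAut.mul_apply])
  have hqτ : ∀ s a b, q a = q b → q (τ s a) = q (τ s b) := by
    intro s a b h
    rw [← inv_mul_eq_one, ← map_inv, ← map_mul, hq] at h ⊢
    have hi : τ s a⁻¹ = (τ s a)⁻¹ := eq_inv_of_mul_eq_one_left (by
      rw [← hτmul, inv_mul_cancel]; exact Subtype.ext (map_one (σ s)))
    rw [← hi, ← hτmul]
    exact hLS s s.2 _ h
  let N : K' →* K' ⧸ L'.subgroupOf K' := MonoidHom.mk' (fun k => ∏ s : S, q (τ s k)) fun k k' => by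
    simp only [hτmul, map_mul, Finset.prod_mul_distrib]
  have hNapp : ∀ k, N k = ∏ s : S, q (τ s k) := fun k => rfl
  have hNfix : ∀ k m, q m = N k → ∀ t, q (τ t m) = q m := by
    intro k m hm t
    let τt : K' →* K' := MonoidHom.mk' (τ t) (hτmul t)
    -- push the product through the induced map
    let E1 : (K' ⧸ L'.subgroupOf K') →* (K' ⧸ L'.subgroupOf K') :=
      QuotientGroup.lift _ (q.comp τt) fun x hx => by
        have hx' : q x = q 1 := by rw [map_one]; exact (QuotientGroup.eq_one_iff x).mpr hx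
        show q (τ t x) = 1
        rw [hqτ t x 1 hx', show τ t 1 = 1 from map_one τt, map_one]
    show E1 (q m) = q m
    rw [hm, hNapp, map_prod]
    exact Fintype.prod_equiv (Equiv.mulLeft t) _ _ fun s => by
      show q (τ t (τ s k)) = q (τ (t * s) k)
      rw [hτcomp]
  have hcard : ∀ x : K' ⧸ L'.subgroupOf K', (Nat.card S).Coprime (orderOf x) := fun x =>
    (Nat.Coprime.coprime_dvd_left ((orderOf_dvd_natCard x).trans
      ((Subgroup.card_quotient_dvd_card _).trans (Subgroup.card_subgroup_dvd_card K'))) hcop).symm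
  have hNconst : ∀ k, (∀ s, q (τ s k) = q k) → N k = q k ^ Nat.card S := fun k h => by
    rw [hNapp, Finset.prod_congr rfl (fun s _ => h s), Finset.prod_const, Finset.card_univ,
      Nat.card_eq_fintype_card]
  have hroot : ∀ x : K' ⧸ L'.subgroupOf K', x ^ Nat.card S = 1 → x = 1 := fun x hx => by
    obtain ⟨i, hi⟩ := exists_pow_eq_self_of_coprime (hcard x)
    rw [← hi, hx, one_pow]
  set K₀ : Subgroup G := N.ker.map K'.subtype with hK₀
  have hK₀mem : ∀ x, x ∈ K₀ → ∃ hx : x ∈ K', N ⟨x, hx⟩ = 1 := by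
    rintro x ⟨k, hk, rfl⟩
    exact ⟨k.2, hk⟩
  have hL₀ : L' ≤ K₀ := fun l hl => ⟨⟨l, hLK hl⟩, Finset.prod_eq_one fun s _ => (hq _).mpr (hLS s s.2 _ hl), rfl⟩
  haveI : Finite L := inferInstance
  have hlift : ∀ k : K', (∀ s, q (τ s k) = q k) → ∃ c : K', ((c : G) : Γ) ∈ C ∧ q c = q k := by
    intro k hk
    have hLsolv : Group.IsSolvable L := solvable_of_solvable_injective (Subgroup.inclusion_injective hLG)
    obtain ⟨n, hn, hnc⟩ := H20.exists_mul_mem_centralizer (A := S) (N := L) (k := ((k : G) : Γ))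
      (H43.le_normalizer_of_conj_mem hLS)
      (Nat.Coprime.coprime_dvd_right (Subgroup.card_dvd_of_le hLG) hcop.symm) (Or.inr hLsolv)
      (fun a ha => by
        have h := hk ⟨a, ha⟩
        rw [eq_comm, ← inv_mul_eq_one, ← map_inv, ← map_mul, hq] at h
        exact h)
    refine ⟨k * ⟨⟨n, hLG hn⟩, hLK hn⟩, ?_, ?_⟩
    · rw [hC]; exact ⟨mul_mem (k : G).2 (hLG hn), hnc⟩
    · rw [map_mul, (hq (⟨⟨n, hLG hn⟩, hLK hn⟩ : K')).mpr hn, mul_one]
  refine ⟨{ K := K₀, H := H.subgroupOf G, act := σ, odd := hodd, coprime := hcop, K_normal := ?_,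
            L_le_K := hL₀, L_le_H := fun l hl => hH ▸ Subgroup.mem_sup_left hl, sup := ?_, inf := ?_,
            comm := fun a ha b hb => hab _ (hK₀mem a ha).1 _ (hK₀mem b hb).1,
            act_L := fun s l hl => hLS s s.2 _ hl, act_K := ?_, fix_H := ?_, fpf := ?_ }, rfl, rfl⟩
  · refine ⟨fun x hx g => ?_⟩
    obtain ⟨hxK, hNx⟩ := hK₀mem x hx
    obtain ⟨k, hk, c, hc, e⟩ := hdec K hKG hKn (g : Γ) (by rw [hGKC]; exact g.2)
    let k' : K' := ⟨⟨k, hKG hk⟩, hk⟩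
    let c' : G := ⟨c, hCG hc⟩
    let y : K' := ⟨c' * x * c'⁻¹, hKn c (hCG hc) _ hxK⟩
    refine ⟨k' * y * k'⁻¹, ?_, ?_⟩
    · show N _ = 1
      rw [map_mul, map_mul, map_inv, mul_comm (N k'), mul_inv_cancel_right]
      -- conjugation by a fixed element respects the norm
      let γc : (K' ⧸ L'.subgroupOf K') →* (K' ⧸ L'.subgroupOf K') :=
        QuotientGroup.lift _ (q.comp (MonoidHom.mk'
          (fun z : K' => (⟨c' * z * c'⁻¹, hKn c (hCG hc) _ z.2⟩ : K'))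
          fun z z' => Subtype.ext (by simp [mul_assoc]))) fun z hz =>
          (hq _).mpr (hLn c (hCG hc) _ hz)
      have : N y = γc (N ⟨x, hxK⟩) := by
        rw [hNapp, hNapp, map_prod]
        refine Finset.prod_congr rfl fun s _ => congrArg q (Subtype.ext ?_)
        show σ s (c' * x * c'⁻¹) = c' * σ s x * c'⁻¹
        rw [map_mul, map_mul, map_inv, hfixC c' hc s]
      rw [this, hNx, map_one]
    · refine Subtype.ext ?_
      show k * (c * (x : Γ) * c⁻¹) * k⁻¹ = g * x * (g : Γ)⁻¹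
      rw [e]; group
  · intro g
    obtain ⟨k, hk, c, hc, e⟩ := hdec K hKG hKn (g : Γ) (by rw [hGKC]; exact g.2)
    let k' : K' := ⟨⟨k, hKG hk⟩, hk⟩
    obtain ⟨i, hi⟩ := exists_pow_eq_self_of_coprime (hcard (N k'))
    obtain ⟨m, hm⟩ : ∃ m, q m = N k' := QuotientGroup.mk'_surjective _ _
    obtain ⟨c₁, hc₁, hqc⟩ := hlift (m ^ i) fun s => by
      have h1 := hNfix k' m hm s
      have h2 : τ s (m ^ i) = τ s m ^ i := map_pow (MonoidHom.mk' (τ s) (hτmul s)) m i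
      rw [h2, map_pow, h1, map_pow]
    refine ⟨((k' * c₁⁻¹ : K') : G), ⟨k' * c₁⁻¹, ?_, rfl⟩, (c₁ : G) * ⟨c, hCG hc⟩, ?_, ?_⟩
    · show N _ = 1
      have hNc : N c₁ = q c₁ ^ Nat.card S :=
        hNconst c₁ fun s => congrArg q (Subtype.ext (hfixC _ hc₁ s))
      rw [map_mul, map_inv, hNc, hqc, map_pow, hm, ← pow_mul, mul_comm i, pow_mul, hi, mul_inv_cancel]
    · show ((c₁ : G) : Γ) * c ∈ H
      rw [hH]; exact Subgroup.mem_sup_right (mul_mem hc₁ hc)
    · refine Subtype.ext ?_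
      show (g : Γ) = k * ((c₁ : G) : Γ)⁻¹ * (((c₁ : G) : Γ) * c)
      rw [e]; group
  · intro x hx hxH
    obtain ⟨hxK, hN⟩ := hK₀mem x hx
    have hxH' : (x : Γ) ∈ L ⊔ C := hH ▸ hxH
    obtain ⟨l, hl, c, hc, e⟩ := hdec L hLG hLn _ hxH'
    have hcK : c ∈ K := by
      have : l⁻¹ * (x : Γ) ∈ K := mul_mem (inv_mem (hLK hl)) hxK
      rwa [e, inv_mul_cancel_left] at this
    have hconst : ∀ s, q (τ s ⟨x, hxK⟩) = q ⟨x, hxK⟩ := by
      intro s
      have hqc : q ⟨x, hxK⟩ = q ⟨⟨c, hCG hc⟩, hcK⟩ := by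
        rw [← mul_inv_eq_one, ← map_inv, ← map_mul, hq]
        show (x : Γ) * c⁻¹ ∈ L
        rw [e, mul_inv_cancel_right]; exact hl
      rw [hqτ s _ _ hqc, hqc]
      exact congrArg q (Subtype.ext (hfixC _ hc s))
    rw [hNconst _ hconst] at hN
    exact (hq _).mp (hroot _ hN)
  · intro s x hx
    obtain ⟨hxK, hN⟩ := hK₀mem x hx
    refine ⟨τ s ⟨x, hxK⟩, ?_, rfl⟩
    show N _ = 1
    rw [← hN, hNapp, hNapp]
    exact Fintype.prod_equiv (Equiv.mulRight s) _ _ fun t => by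
      show q (τ t (τ s _)) = q (τ (t * s) _)
      rw [hτcomp]
  · intro h hh
    have hh' : (h : Γ) ∈ L ⊔ C := hH ▸ hh
    obtain ⟨l, hl, c, hc, e⟩ := hdec L hLG hLn _ hh'
    exact ⟨⟨l, hLG hl⟩, hl, ⟨c, hCG hc⟩, hfixC _ hc, Subtype.ext e⟩
  · intro x hx h
    obtain ⟨hxK, hN⟩ := hK₀mem x hx
    have hconst : ∀ s, q (τ s ⟨x, hxK⟩) = q ⟨x, hxK⟩ := by
      intro s
      rw [eq_comm, ← inv_mul_eq_one, ← map_inv, ← map_mul, hq]
      exact h s
    rw [hNconst _ hconst] at hN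
    exact (hq _).mp (hroot _ hN)

end Cfsg.Agent.H44.Parity
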