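import Mathlib

/-!
# The norm of the parity-twisted restriction
-/

set_option autoImplicit false

namespace Cfsg.Agent.H44.Parity

variable {n : Type*} [Fintype n] [DecidableEq n]

/-- Two-sided multiplication on matrices. -/
def twoSided (A B : Matrix n n ℂ) : Module.End ℂ (Matrix n n ℂ) :=
  LinearMap.mulLeftRight ℂ (A, B)

theorem twoSided_apply (A B X : Matrix n n ℂ) : twoSided A B X = A * X * B := by
  simp [twoSided]

theorem trace_twoSided (A B : Matrix n n ℂ) :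
    LinearMap.trace ℂ _ (twoSided A B) = A.trace * B.trace := by
  rw [LinearMap.trace_eq_matrix_trace ℂ (Matrix.stdBasis ℂ n n), Matrix.trace,
    Fintype.sum_prod_type, Matrix.trace, Matrix.trace, Finset.sum_mul_sum]
  refine Finset.sum_congr rfl fun i _ => Finset.sum_congr rfl fun j _ => ?_
  rw [Matrix.diag_apply, LinearMap.toMatrix_apply, twoSided_apply, Matrix.stdBasis_eq_single]
  simp [Matrix.stdBasis, Matrix.mul_apply, Matrix.single_apply, ite_and, Finset.sum_ite_eq, Finset.sum_ite_irrel]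

variable {G : Type*} [Group G] [Fintype G]

/-- The data of the parity operator in one representation. -/
structure Op (K H L : Subgroup G) (E : Type*) [CommGroup E] (n : Type*) [Fintype n]
    [DecidableEq n] where
  ρ : G →* Matrix n n ℂ
  q : K → E
  W : E → (Matrix n n ℂ)ˣ
  T : Matrix n n ℂ
  act : H → E ≃* E
  sup : ∀ g : G, ∃ k ∈ K, ∃ h ∈ H, g = k * h
  act_fpf : ∀ h y, act h y = y⁻¹ → y = 1
  sq : T * T = 1
  comm_of_comm : ∀ X, (∀ g, ρ g * X = X * ρ g) → T * X = X * T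
  comm_H : ∀ h ∈ H, T * ρ h = ρ h * T
  comm_L : ∀ l ∈ L, T * ρ l = ρ l * T
  swap : ∀ x, T * (W x : Matrix n n ℂ) = (W x⁻¹ : Matrix n n ℂ) * T
  W_mul : ∀ x y, ∃ c : ℂ, (W x : Matrix n n ℂ) * W y = c • (W (x * y) : Matrix n n ℂ)
  W_L : ∀ x, ∀ l ∈ L, (W x : Matrix n n ℂ) * ρ l = ρ l * W x
  W_H : ∀ (h : H) (x : E), ρ h * (W x : Matrix n n ℂ) = (W (act h x) : Matrix n n ℂ) * ρ h
  conj_eq : ∀ (k : K) (X : Matrix n n ℂ), (∀ l ∈ L, ρ l * X = X * ρ l) →
    ρ k * X * ρ (k : G)⁻¹ = (W (q k) : Matrix n n ℂ) * X * ((W (q k))⁻¹ : (Matrix n n ℂ)ˣ)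

namespace Op

variable {K H L : Subgroup G} [L.Normal] [Fintype K] [Fintype H] [Fintype L] {E : Type*} [CommGroup E]
  [Finite E] (D : Op K H L E n)

theorem ρ_inv_mul (g : G) : D.ρ g⁻¹ * D.ρ g = 1 := by rw [← map_mul, inv_mul_cancel, map_one]

theorem ρ_mul_inv (g : G) : D.ρ g * D.ρ g⁻¹ = 1 := by rw [← map_mul, mul_inv_cancel, map_one]

/-- The averaging over `L`. -/
noncomputable def P : Module.End ℂ (Matrix n n ℂ) :=
  (Nat.card L : ℂ)⁻¹ • ∑ l : L, twoSided (D.ρ l) (D.ρ (l : G)⁻¹)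

theorem P_apply (X : Matrix n n ℂ) :
    D.P X = (Nat.card L : ℂ)⁻¹ • ∑ l : L, D.ρ l * X * D.ρ (l : G)⁻¹ := by
  simp [P, twoSided_apply]

theorem P_commute (X : Matrix n n ℂ) {a : G} (ha : a ∈ L) : D.ρ a * D.P X = D.P X * D.ρ a := by
  rw [P_apply, Matrix.mul_smul, Matrix.smul_mul, Finset.mul_sum, Finset.sum_mul]
  congr 1
  refine Fintype.sum_equiv (Equiv.mulLeft (⟨a, ha⟩ : L)) _ _ fun l => ?_
  show D.ρ a * (D.ρ l * X * D.ρ (l : G)⁻¹) = D.ρ (a * l) * X * D.ρ (a * (l : G))⁻¹ * D.ρ a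
  rw [mul_inv_rev, map_mul, map_mul, mul_assoc _ (D.ρ (l : G)⁻¹ * D.ρ a⁻¹), mul_assoc (D.ρ (l : G)⁻¹),
    D.ρ_inv_mul, mul_one]
  simp only [mul_assoc]

theorem P_of_commute {X : Matrix n n ℂ} (hX : ∀ l ∈ L, D.ρ l * X = X * D.ρ l) : D.P X = X := by
  rw [P_apply, Finset.sum_congr rfl (fun l _ => by rw [hX _ l.2, mul_assoc, D.ρ_mul_inv, mul_one]),
    Finset.sum_const, Finset.card_univ, ← Nat.card_eq_fintype_card, ← Nat.cast_smul_eq_nsmul ℂ,
    smul_smul, inv_mul_cancel₀ (Nat.cast_ne_zero.mpr Nat.card_pos.ne'), one_smul]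

/-- The operator whose trace is averaged. -/
noncomputable def F (g : G) : Module.End ℂ (Matrix n n ℂ) :=
  twoSided (D.T * D.ρ g) (D.ρ g⁻¹ * D.T) * D.P

theorem F_apply (g : G) (X : Matrix n n ℂ) :
    D.F g X = D.T * D.ρ g * D.P X * (D.ρ g⁻¹ * D.T) := by
  simp [F, twoSided_apply]

theorem trace_F (g : G) : LinearMap.trace ℂ _ (D.F g) = (Nat.card L : ℂ)⁻¹ *
    ∑ l : L, (D.T * D.ρ (g * l)).trace * (D.ρ (g * (l : G))⁻¹ * D.T).trace := by
  have h : D.F g = (Nat.card L : ℂ)⁻¹ •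
      ∑ l : L, twoSided (D.T * D.ρ (g * l)) (D.ρ (g * (l : G))⁻¹ * D.T) := by
    ext1 X
    rw [F_apply, P_apply, LinearMap.smul_apply, LinearMap.sum_apply, Matrix.mul_smul,
      Matrix.smul_mul, Finset.mul_sum, Finset.sum_mul]
    congr 1
    refine Finset.sum_congr rfl fun l _ => ?_
    rw [twoSided_apply, mul_inv_rev, map_mul, map_mul]
    simp only [mul_assoc]
  rw [h, map_smul, map_sum, smul_eq_mul]
  simp_rw [trace_twoSided]

/-- Conjugation by a member of the system. -/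
noncomputable def A (x : E) : Module.End ℂ (Matrix n n ℂ) :=
  twoSided (D.W x : Matrix n n ℂ) ((D.W x)⁻¹ : (Matrix n n ℂ)ˣ) * D.P

theorem A_apply (x : E) (X : Matrix n n ℂ) :
    D.A x X = (D.W x : Matrix n n ℂ) * D.P X * ((D.W x)⁻¹ : (Matrix n n ℂ)ˣ) := by
  simp [A, twoSided_apply]

theorem Winv_L (x : E) {l : G} (hl : l ∈ L) :
    (((D.W x)⁻¹ : (Matrix n n ℂ)ˣ) : Matrix n n ℂ) * D.ρ l =
      D.ρ l * ((D.W x)⁻¹ : (Matrix n n ℂ)ˣ) := by
  rw [Units.inv_mul_eq_iff_eq_mul, ← mul_assoc, D.W_L x l hl, mul_assoc, Units.mul_inv, mul_one]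

theorem A_commute (x : E) (X : Matrix n n ℂ) {l : G} (hl : l ∈ L) :
    D.ρ l * D.A x X = D.A x X * D.ρ l := by
  rw [A_apply]
  calc D.ρ l * ((D.W x : Matrix n n ℂ) * D.P X * ((D.W x)⁻¹ : (Matrix n n ℂ)ˣ))
      = (D.ρ l * (D.W x : Matrix n n ℂ)) * D.P X * ((D.W x)⁻¹ : (Matrix n n ℂ)ˣ) := by
        simp only [mul_assoc]
    _ = (D.W x : Matrix n n ℂ) * (D.ρ l * D.P X) * ((D.W x)⁻¹ : (Matrix n n ℂ)ˣ) := by
        rw [← D.W_L x l hl]; simp only [mul_assoc]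
    _ = (D.W x : Matrix n n ℂ) * D.P X * (D.ρ l * ((D.W x)⁻¹ : (Matrix n n ℂ)ˣ)) := by
        rw [D.P_commute X hl]; simp only [mul_assoc]
    _ = _ := by rw [← D.Winv_L x hl]; simp only [mul_assoc]

theorem conjW_mul (x y : E) (Y : Matrix n n ℂ) :
    (D.W x : Matrix n n ℂ) * ((D.W y : Matrix n n ℂ) * Y * ((D.W y)⁻¹ : (Matrix n n ℂ)ˣ)) *
        ((D.W x)⁻¹ : (Matrix n n ℂ)ˣ) =
      (D.W (x * y) : Matrix n n ℂ) * Y * ((D.W (x * y))⁻¹ : (Matrix n n ℂ)ˣ) := by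
  obtain ⟨c, hc⟩ := D.W_mul x y
  have h1 : (D.W x : Matrix n n ℂ) * ((D.W y : Matrix n n ℂ) * Y * ((D.W y)⁻¹ : (Matrix n n ℂ)ˣ)) *
        ((D.W x)⁻¹ : (Matrix n n ℂ)ˣ) =
      ((D.W x : Matrix n n ℂ) * D.W y) * Y * ((D.W x * D.W y)⁻¹ : (Matrix n n ℂ)ˣ) := by
    rw [mul_inv_rev, Units.val_mul]; simp only [mul_assoc]
  have h2 : c • ((((D.W x) * D.W y)⁻¹ : (Matrix n n ℂ)ˣ) : Matrix n n ℂ) =
      ((D.W (x * y))⁻¹ : (Matrix n n ℂ)ˣ) := by
    rw [← Units.mul_eq_one_iff_eq_inv]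
    calc c • ((((D.W x) * D.W y)⁻¹ : (Matrix n n ℂ)ˣ) : Matrix n n ℂ) * (D.W (x * y) : Matrix n n ℂ)
        = ((((D.W x) * D.W y)⁻¹ : (Matrix n n ℂ)ˣ) : Matrix n n ℂ) *
            (c • (D.W (x * y) : Matrix n n ℂ)) := by rw [Matrix.smul_mul, Matrix.mul_smul]
      _ = 1 := by rw [← hc, ← Units.val_mul, Units.inv_mul]
  rw [h1, hc, ← h2, Matrix.smul_mul, Matrix.smul_mul, Matrix.mul_smul]

theorem A_mul (x y : E) : D.A x * D.A y = D.A (x * y) := by
  ext1 X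
  rw [Module.End.mul_apply, D.A_apply x, D.P_of_commute (fun l hl => D.A_commute y X hl),
    D.A_apply, D.A_apply, D.conjW_mul]

theorem A_one : D.A 1 = D.P := by
  ext1 X
  have h := D.conjW_mul 1 1 (((D.W 1)⁻¹ : (Matrix n n ℂ)ˣ) * D.P X * (D.W 1 : Matrix n n ℂ))
  rw [mul_one] at h
  simp only [mul_assoc, Units.mul_inv, mul_one, Units.mul_inv_cancel_left] at h
  rw [A_apply, mul_assoc]
  exact h

theorem F_commute (g : G) (X : Matrix n n ℂ) {l : G} (hl : l ∈ L) :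
    D.ρ l * D.F g X = D.F g X * D.ρ l := by
  have hl' : g⁻¹ * l * g ∈ L := by
    have := Subgroup.Normal.conj_mem (inferInstance : L.Normal) l hl g⁻¹
    rwa [inv_inv] at this
  rw [F_apply]
  calc D.ρ l * (D.T * D.ρ g * D.P X * (D.ρ g⁻¹ * D.T))
      = (D.ρ l * D.T) * D.ρ g * D.P X * (D.ρ g⁻¹ * D.T) := by simp only [mul_assoc]
    _ = D.T * (D.ρ g * D.ρ (g⁻¹ * l * g)) * D.P X * (D.ρ g⁻¹ * D.T) := by
        rw [← D.comm_L l hl, ← map_mul, show g * (g⁻¹ * l * g) = l * g by group, map_mul]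
        simp only [mul_assoc]
    _ = D.T * D.ρ g * (D.ρ (g⁻¹ * l * g) * D.P X) * (D.ρ g⁻¹ * D.T) := by simp only [mul_assoc]
    _ = D.T * D.ρ g * D.P X * (D.ρ (g⁻¹ * l * g * g⁻¹) * D.T) := by
        rw [D.P_commute X hl', map_mul (D.ρ) (g⁻¹ * l * g)]; simp only [mul_assoc]
    _ = _ := by
        rw [show g⁻¹ * l * g * g⁻¹ = g⁻¹ * l by group, map_mul, mul_assoc (D.ρ g⁻¹),
          ← D.comm_L l hl]
        simp only [mul_assoc]

theorem trace_F_mul (k : K) (h : H) :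
    LinearMap.trace ℂ _ (D.F ((k : G) * h)) = LinearMap.trace ℂ _ (D.F (h : G)) := by
  -- split off the conjugation by the system
  have hPF : ∀ g, D.P * D.F g = D.F g := fun g => by
    ext1 X
    rw [Module.End.mul_apply, D.P_of_commute (fun l hl => D.F_commute g X hl)]
  have hFP : ∀ g, D.F g * D.P = D.F g := fun g => by
    ext1 X
    rw [Module.End.mul_apply, D.F_apply, D.F_apply,
      D.P_of_commute (fun l hl => D.P_commute X hl)]
  have hPh : ∀ X, ∀ l ∈ L, D.ρ l * (D.ρ h * D.P X * D.ρ (h : G)⁻¹) =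
      (D.ρ h * D.P X * D.ρ (h : G)⁻¹) * D.ρ l := by
    intro X l hl
    have hl' : (h : G)⁻¹ * l * h ∈ L := by
      have := Subgroup.Normal.conj_mem (inferInstance : L.Normal) l hl (h : G)⁻¹
      rwa [inv_inv] at this
    calc D.ρ l * (D.ρ h * D.P X * D.ρ (h : G)⁻¹)
        = D.ρ (h * ((h : G)⁻¹ * l * h)) * D.P X * D.ρ (h : G)⁻¹ := by
          rw [show (h : G) * ((h : G)⁻¹ * l * h) = l * h by group, map_mul]; simp only [mul_assoc]
      _ = D.ρ h * D.P X * D.ρ ((h : G)⁻¹ * l * h * (h : G)⁻¹) := by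
          rw [map_mul D.ρ (h : G), mul_assoc (D.ρ h), D.P_commute X hl', map_mul D.ρ _ (h : G)⁻¹]
          simp only [mul_assoc]
      _ = _ := by
          rw [show (h : G)⁻¹ * l * h * (h : G)⁻¹ = (h : G)⁻¹ * l by group, map_mul]
          simp only [mul_assoc]
  -- the operator for a member of the system
  set B : E → Module.End ℂ (Matrix n n ℂ) := fun x =>
    twoSided (D.T * (D.W x : Matrix n n ℂ) * D.ρ h)
      (D.ρ (h : G)⁻¹ * ((D.W x)⁻¹ : (Matrix n n ℂ)ˣ) * D.T) * D.P with hB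
  have hBk : D.F ((k : G) * h) = B (D.q k) := by
    ext1 X
    rw [D.F_apply, map_mul, mul_inv_rev, map_mul]
    calc D.T * (D.ρ k * D.ρ h) * D.P X * (D.ρ (h : G)⁻¹ * D.ρ (k : G)⁻¹ * D.T)
        = D.T * (D.ρ k * (D.ρ h * D.P X * D.ρ (h : G)⁻¹) * D.ρ (k : G)⁻¹) * D.T := by
          simp only [mul_assoc]
      _ = _ := by
          rw [D.conj_eq k _ (hPh X), hB, Module.End.mul_apply, twoSided_apply]
          simp only [mul_assoc]
  have hB1 : ∀ x, B x = D.F (h : G) * D.A ((D.act h).symm x) := by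
    intro x
    set z := (D.act h).symm x
    have hzx : D.act h z = x := (D.act h).apply_symm_apply x
    ext1 X
    simp only [hB, Module.End.mul_apply, twoSided_apply, D.F_apply]
    rw [D.P_of_commute (X := D.A z X) (fun l hl => D.A_commute z X hl), D.A_apply]
    have e1 : D.ρ h * (D.W z : Matrix n n ℂ) = (D.W x : Matrix n n ℂ) * D.ρ h := hzx ▸ D.W_H h z
    have e2 : (((D.W z)⁻¹ : (Matrix n n ℂ)ˣ) : Matrix n n ℂ) * D.ρ (h : G)⁻¹ =
        D.ρ (h : G)⁻¹ * ((D.W x)⁻¹ : (Matrix n n ℂ)ˣ) := by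
      rw [Units.inv_mul_eq_iff_eq_mul, ← mul_assoc, Units.eq_mul_inv_iff_mul_eq]
      calc D.ρ (h : G)⁻¹ * (D.W x : Matrix n n ℂ)
          = D.ρ (h : G)⁻¹ * ((D.W x : Matrix n n ℂ) * D.ρ h) * D.ρ (h : G)⁻¹ := by
            simp only [mul_assoc, D.ρ_mul_inv, mul_one]
        _ = (D.W z : Matrix n n ℂ) * D.ρ (h : G)⁻¹ := by
            rw [← e1, ← mul_assoc, D.ρ_inv_mul, one_mul]
    calc D.T * (D.W x : Matrix n n ℂ) * D.ρ h * D.P X *
          (D.ρ (h : G)⁻¹ * ((D.W x)⁻¹ : (Matrix n n ℂ)ˣ) * D.T)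
        = D.T * ((D.W x : Matrix n n ℂ) * D.ρ h) * D.P X *
          ((D.ρ (h : G)⁻¹ * ((D.W x)⁻¹ : (Matrix n n ℂ)ˣ)) * D.T) := by simp only [mul_assoc]
      _ = _ := by rw [← e1, ← e2]; simp only [mul_assoc]
  have hAF : ∀ y, D.A y * D.F (h : G) = D.F (h : G) * D.A ((D.act h).symm y⁻¹) := by
    intro y
    rw [← hB1]
    ext1 X
    rw [Module.End.mul_apply, D.A_apply, D.P_of_commute (fun l hl => D.F_commute _ X hl),
      D.F_apply, hB, Module.End.mul_apply, twoSided_apply]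
    have e1 : (D.W y : Matrix n n ℂ) * D.T = D.T * (D.W y⁻¹ : Matrix n n ℂ) := by
      have := D.swap y⁻¹
      rw [inv_inv] at this
      exact this.symm
    have e2 : D.T * (((D.W y)⁻¹ : (Matrix n n ℂ)ˣ) : Matrix n n ℂ) =
        ((D.W y⁻¹)⁻¹ : (Matrix n n ℂ)ˣ) * D.T := by
      rw [Units.eq_inv_mul_iff_mul_eq, ← mul_assoc, Units.mul_inv_eq_iff_eq_mul]
      exact (D.swap y).symm
    calc (D.W y : Matrix n n ℂ) * (D.T * D.ρ h * D.P X * (D.ρ (h : G)⁻¹ * D.T)) *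
          (((D.W y)⁻¹ : (Matrix n n ℂ)ˣ) : Matrix n n ℂ)
        = ((D.W y : Matrix n n ℂ) * D.T) * D.ρ h * D.P X *
          (D.ρ (h : G)⁻¹ * (D.T * (((D.W y)⁻¹ : (Matrix n n ℂ)ˣ) : Matrix n n ℂ))) := by
          simp only [mul_assoc]
      _ = _ := by rw [e1, e2]; simp only [mul_assoc]
  set a := (D.act h).symm with ha
  obtain ⟨y, hy⟩ : ∃ y, a y⁻¹ * y⁻¹ = a (D.q k) := by
    have hinj : Function.Injective fun y : E => a y⁻¹ * y⁻¹ := by
      intro y y' e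
      set w := y⁻¹ * y' with hw
      have hyw : y' = y * w := (mul_inv_cancel_left y y').symm
      have e' : a y⁻¹ * y⁻¹ = a y⁻¹ * y⁻¹ * (a w⁻¹ * w⁻¹) := by
        refine e.trans ?_
        simp only [hyw, mul_inv, map_mul]
        ac_rfl
      have e2 : a w * w = 1 := by
        have := mul_eq_left.mp e'.symm
        rwa [map_inv, ← mul_inv, inv_eq_one] at this
      have h3 : D.act h w = w⁻¹ := by
        have h4 := congrArg (D.act h) e2
        rw [map_mul, map_one, ha, (D.act h).apply_symm_apply] at h4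
        exact eq_inv_of_mul_eq_one_right h4
      have h5 := D.act_fpf h w h3
      rw [hyw, h5, mul_one]
    exact (Finite.injective_iff_surjective.mp hinj) (a (D.q k))
  rw [hBk, hB1, ← hy, ← D.A_mul, ← mul_assoc, ← hAF y, mul_assoc, LinearMap.trace_mul_comm,
    mul_assoc, D.A_mul, inv_mul_cancel, D.A_one, hFP]

/-- The average over `G` equals the average over `H`. -/
theorem norm_eq (hLH : L ≤ H) (hcard : ∀ g : G, Nat.card {p : K × H // (p.1 : G) * p.2 = g} = Nat.card L) :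
    (Nat.card G : ℂ)⁻¹ * ∑ g : G, (D.ρ g).trace * (D.ρ g⁻¹).trace =
      (Nat.card H : ℂ)⁻¹ * ∑ h : H, (D.T * D.ρ h).trace * (D.ρ (h : G)⁻¹ * D.T).trace := by
  classical
  set f : G → ℂ := fun g => (D.T * D.ρ g).trace * (D.ρ g⁻¹ * D.T).trace with hf
  have hG : (Nat.card G : ℂ) ≠ 0 := Nat.cast_ne_zero.mpr Nat.card_pos.ne'
  have hH : (Nat.card H : ℂ) ≠ 0 := Nat.cast_ne_zero.mpr Nat.card_pos.ne'
  have hL : (Nat.card L : ℂ) ≠ 0 := Nat.cast_ne_zero.mpr Nat.card_pos.ne'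
  have hfib : ∀ u : G → ℂ, (Nat.card L : ℂ) * ∑ g : G, u g = ∑ k : K, ∑ h : H, u ((k : G) * h) := by
    intro u
    rw [← Fintype.sum_prod_type', ← Fintype.sum_fiberwise (fun p : K × H => (p.1 : G) * p.2),
      Finset.mul_sum]
    refine Finset.sum_congr rfl fun g _ => ?_
    rw [Finset.sum_congr rfl (fun p _ => by rw [p.2]), Finset.sum_const, Finset.card_univ,
      ← Nat.card_eq_fintype_card, nsmul_eq_mul, hcard]
  have havg : ∑ g : G, LinearMap.trace ℂ _ (D.F g) = ∑ g : G, f g := by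
    simp_rw [D.trace_F, Finset.mul_sum]
    rw [Finset.sum_comm]
    have : ∀ l : L, ∑ g : G, (Nat.card L : ℂ)⁻¹ * f (g * l) = (Nat.card L : ℂ)⁻¹ * ∑ g : G, f g :=
      fun l => by
        rw [Finset.mul_sum]
        exact Fintype.sum_equiv (Equiv.mulRight (l : G)) _ _ fun g => rfl
    rw [Finset.sum_congr rfl (fun l _ => this l), Finset.sum_const, Finset.card_univ,
      ← Nat.card_eq_fintype_card, nsmul_eq_mul, ← mul_assoc, mul_inv_cancel₀ hL, one_mul]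
  have havgH : ∑ h : H, LinearMap.trace ℂ _ (D.F (h : G)) = ∑ h : H, f h := by
    simp_rw [D.trace_F, Finset.mul_sum]
    rw [Finset.sum_comm]
    have : ∀ l : L, ∑ h : H, (Nat.card L : ℂ)⁻¹ * f ((h : G) * l) =
        (Nat.card L : ℂ)⁻¹ * ∑ h : H, f h := fun l => by
      rw [Finset.mul_sum]
      exact Fintype.sum_equiv (Equiv.mulRight (⟨(l : G), hLH l.2⟩ : H)) _ _ fun h => rfl
    rw [Finset.sum_congr rfl (fun l _ => this l), Finset.sum_const, Finset.card_univ,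
      ← Nat.card_eq_fintype_card, nsmul_eq_mul, ← mul_assoc, mul_inv_cancel₀ hL, one_mul]
  -- the left side
  set Proj : Module.End ℂ (Matrix n n ℂ) := (Nat.card G : ℂ)⁻¹ • ∑ g : G, twoSided (D.ρ g) (D.ρ g⁻¹)
  have hproj : (Nat.card G : ℂ)⁻¹ • ∑ g : G, twoSided (D.T * D.ρ g) (D.ρ g⁻¹ * D.T) = Proj := by
    ext1 X
    simp only [Proj, LinearMap.smul_apply, LinearMap.sum_apply, twoSided_apply]
    have hc : ∀ a, D.ρ a * (∑ g : G, D.ρ g * X * D.ρ g⁻¹) = (∑ g : G, D.ρ g * X * D.ρ g⁻¹) * D.ρ a := by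
      intro a
      rw [Finset.mul_sum, Finset.sum_mul]
      refine Fintype.sum_equiv (Equiv.mulLeft a) _ _ fun g => ?_
      show D.ρ a * (D.ρ g * X * D.ρ g⁻¹) = D.ρ (a * g) * X * D.ρ (a * g)⁻¹ * D.ρ a
      rw [mul_inv_rev, map_mul, map_mul, mul_assoc _ (D.ρ g⁻¹ * D.ρ a⁻¹), mul_assoc (D.ρ g⁻¹),
        D.ρ_inv_mul, mul_one]
      simp only [mul_assoc]
    congr 1
    calc ∑ g : G, D.T * D.ρ g * X * (D.ρ g⁻¹ * D.T)
        = D.T * (∑ g : G, D.ρ g * X * D.ρ g⁻¹) * D.T := by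
          rw [Finset.mul_sum, Finset.sum_mul]
          exact Finset.sum_congr rfl fun g _ => by simp only [mul_assoc]
      _ = _ := by rw [D.comm_of_comm _ hc, mul_assoc, D.sq, mul_one]
  have hleft : (Nat.card G : ℂ)⁻¹ * ∑ g : G, (D.ρ g).trace * (D.ρ g⁻¹).trace =
      (Nat.card G : ℂ)⁻¹ * ∑ g : G, f g := by
    have h1 := congrArg (LinearMap.trace ℂ _) hproj
    simp only [Proj, map_smul, map_sum, smul_eq_mul, trace_twoSided] at h1
    exact h1.symm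
  have hright : ∑ k : K, ∑ h : H, LinearMap.trace ℂ _ (D.F ((k : G) * h)) =
      (Nat.card K : ℂ) * ∑ h : H, f h := by
    rw [Finset.sum_congr rfl (fun k _ => Finset.sum_congr rfl fun h _ => D.trace_F_mul k h),
      Finset.sum_const, Finset.card_univ, ← Nat.card_eq_fintype_card, nsmul_eq_mul, havgH]
  have hc1 : (Nat.card K : ℂ) * Nat.card H = (Nat.card L : ℂ) * Nat.card G := by
    have := hfib fun _ => 1
    simp [← Nat.card_eq_fintype_card] at this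
    exact this.symm
  rw [hleft, ← havg]
  have h2 := hfib fun g => LinearMap.trace ℂ _ (D.F g)
  rw [hright] at h2
  field_simp
  show _ = (Nat.card G : ℂ) * ∑ h : H, f h
  apply mul_left_cancel₀ hL
  linear_combination (Nat.card H : ℂ) * h2 + (∑ h : H, f h) * hc1

end Op

end Cfsg.Agent.H44.Parity
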