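import Cfsg.Agent.H44.Parity.Element
import Cfsg.Agent.H44.Parity.Core
import Cfsg.Agent.H26.CharOrtho

/-!
# The parity-twisted restriction to the complement is a generalized character of full norm
-/

set_option autoImplicit false

namespace Cfsg.Agent.H44.Parity

open scoped ComplexConjugate

/-- The standard representation of a matrix homomorphism. -/
noncomputable def repOf {H : Type*} [Group H] {n : Type*} [Fintype n] [DecidableEq n]
    (ρ : H →* Matrix n n ℂ) : Representation ℂ H (n → ℂ) :=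
  (Matrix.toLinAlgEquiv' : Matrix n n ℂ ≃ₐ[ℂ] _).toMulEquiv.toMonoidHom.comp ρ

theorem repOf_character {H : Type*} [Group H] {n : Type*} [Fintype n] [DecidableEq n]
    (ρ : H →* Matrix n n ℂ) (h : H) : (repOf ρ).character h = (ρ h).trace :=
  Matrix.trace_toLin'_eq (ρ h)

theorem isCharacter_matrix {H : Type*} [Group H] [Finite H] {n : Type*} [Fintype n] [DecidableEq n]
    (ρ : H →* Matrix n n ℂ) : Cfsg.IsCharacter H fun h => (ρ h).trace := by
  rw [show (fun h => (ρ h).trace) = (repOf ρ).character from funext fun h => (repOf_character ρ h).symm]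
  exact H26.isCharacter_char _

/-- An idempotent commuting with a representation cuts out a character. -/
theorem isCharacter_idem {H : Type*} [Group H] [Finite H] {n : Type*} [Fintype n] [DecidableEq n]
    (ρ : H →* Matrix n n ℂ) (P : Matrix n n ℂ) (hP : P * P = P) (hc : ∀ h, P * ρ h = ρ h * P) :
    Cfsg.IsCharacter H fun h => (P * ρ h).trace := by
  set f : Module.End ℂ (n → ℂ) := Matrix.toLinAlgEquiv' P with hf
  have hcomm : ∀ h, f * repOf ρ h = repOf ρ h * f := fun h => by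
    show Matrix.toLinAlgEquiv' P * Matrix.toLinAlgEquiv' (ρ h) = _
    rw [← map_mul, hc, map_mul]; rfl
  have hid : ∀ v ∈ LinearMap.range f, f v = v := by
    rintro _ ⟨w, rfl⟩
    show (f * f) w = f w
    rw [hf, ← map_mul, hP]
  let U : Subrepresentation (repOf ρ) := ⟨LinearMap.range f, by
    rintro h _ ⟨w, rfl⟩
    exact ⟨repOf ρ h w, LinearMap.congr_fun (hcomm h) w⟩⟩
  rw [show (fun h => (P * ρ h).trace) = U.toRepresentation.character from funext fun h => ?_]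
  · exact H26.isCharacter_char _
  have h1 := LinearMap.trace_restrict_eq_of_forall_mem (LinearMap.range f) (f * repOf ρ h)
    (fun x => LinearMap.mem_range_self f _)
  have h2 : LinearMap.trace ℂ (n → ℂ) (f * repOf ρ h) = (P * ρ h).trace := by
    rw [show f * repOf ρ h = Matrix.toLinAlgEquiv' (P * ρ h) by rw [map_mul]; rfl]
    exact Matrix.trace_toLin'_eq _
  rw [← h2, ← h1]
  refine congrArg (LinearMap.trace ℂ _) (LinearMap.ext fun v => Subtype.ext ?_)
  exact hid _ (U.apply_mem_toSubmodule h v.2)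

namespace Sys

variable {G : Type*} [Group G] [Fintype G] {S : Type*} [Group S] [Finite S] {L : Subgroup G}
  [L.Normal] [Fintype L] {st : Setup G S L} {d : ℕ} {R : InvRep L d} (Y : Sys st R)

local notation "𝔸" => MonoidAlgebra ℂ G

theorem γ_mul_right (x y y' : st.E) : Y.γ x (y * y') = Y.γ x y * Y.γ x y' := by
  rw [Y.γ_swap (y * y') x, Y.γ_mul_left, Y.γ_swap x y, Y.γ_swap x y', mul_inv, inv_inv, inv_inv]

theorem γ_one_left (y : st.E) : Y.γ 1 y = 1 := by
  have h := Y.γ_mul_left 1 1 y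
  rw [one_mul] at h
  exact (mul_eq_left (a := Y.γ 1 y)).mp h.symm

theorem γ_one_right (y : st.E) : Y.γ y 1 = 1 := by rw [Y.γ_swap, Y.γ_one_left, inv_one]

theorem γ_inv_left (x y : st.E) : Y.γ x⁻¹ y = (Y.γ x y)⁻¹ := by
  refine eq_inv_of_mul_eq_one_left ?_
  rw [← Y.γ_mul_left, inv_mul_cancel, Y.γ_one_left]

theorem γ_inv_right (x y : st.E) : Y.γ x y⁻¹ = (Y.γ x y)⁻¹ := by
  rw [Y.γ_swap, Y.γ_inv_left, inv_inv, Y.γ_swap]

/-- The radical of the pairing. -/
def rad : Subgroup st.E where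
  carrier := {z | ∀ x, Y.γ x z = 1}
  one_mem' x := Y.γ_one_right x
  mul_mem' {a b} ha hb x := by rw [Y.γ_mul_right, ha x, hb x, one_mul]
  inv_mem' {a} ha x := by rw [Y.γ_inv_right, ha x, inv_one]

theorem mem_rad {z : st.E} : z ∈ Y.rad ↔ ∀ x, Y.γ x z = 1 := Iff.rfl

theorem rad_left {z : st.E} (hz : z ∈ Y.rad) (x : st.E) : Y.γ z x = 1 := by
  rw [Y.γ_swap, hz x, inv_one]

theorem w_ne_zero (x : st.E) : Y.w x ≠ 0 := by
  obtain ⟨k, rfl⟩ := st.q_surj x
  obtain ⟨c, hc, h⟩ := Y.w_form k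
  rw [h]
  exact smul_ne_zero hc (R.u_ne_zero _)

theorem e_mul_w (x : st.E) : R.e * Y.w x = Y.w x := by
  rw [← Y.w_one, Y.w_mul, Y.γ_one_left, Units.val_one, one_smul, one_mul]

theorem w_comm_L (x : st.E) (a : L) : InvRep.ν (a : G) * Y.w x = Y.w x * InvRep.ν (a : G) := by
  obtain ⟨k, rfl⟩ := st.q_surj x
  obtain ⟨c, -, h⟩ := Y.w_form k
  rw [h, mul_smul_comm, smul_mul_assoc, R.u_comm_L]

theorem w_comm_Λ (x : st.E) (A : Matrix (Fin d) (Fin d) ℂ) : R.Λ A * Y.w x = Y.w x * R.Λ A := by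
  rw [R.Λ_apply, Finset.sum_mul, Finset.mul_sum]
  exact Finset.sum_congr rfl fun a _ => by rw [smul_mul_assoc, mul_smul_comm, Y.w_comm_L]

theorem γ_act (h : st.H) (x y : st.E) : Y.γ (Y.act h x) (Y.act h y) = Y.γ x y := by
  have h1 : InvRep.ν (h : G) * (Y.w x * Y.w y) = Y.w (Y.act h x) * Y.w (Y.act h y) * InvRep.ν (h : G) := by
    rw [← mul_assoc, Y.ν_H, mul_assoc, Y.ν_H, ← mul_assoc]
  rw [Y.w_mul, mul_smul_comm, Y.ν_H, Y.w_mul, ← map_mul, smul_mul_assoc] at h1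
  refine Units.ext (smul_left_injective ℂ ?_ h1.symm)
  intro h0
  refine Y.w_ne_zero (Y.act h (x * y)) ?_
  rw [← mul_one (Y.w _), ← map_one InvRep.ν, ← mul_inv_cancel (h : G), map_mul InvRep.ν, ← mul_assoc, h0, zero_mul]

theorem γ_σ (s : S) (x y : st.E) : Y.γ (Y.σ s x) (Y.σ s y) = Y.γ x y := by
  have h1 := congrArg (MonoidAlgebra.domCongr ℂ ℂ (st.act s)) (Y.w_mul x y)
  rw [map_smul, map_mul, Y.alg_w, Y.alg_w, Y.alg_w, Y.w_mul, ← map_mul] at h1
  exact Units.ext (smul_left_injective ℂ (Y.w_ne_zero _) h1)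

theorem act_rad (h : st.H) {z : st.E} (hz : z ∈ Y.rad) : Y.act h z ∈ Y.rad := fun x => by
  obtain ⟨y, rfl⟩ := (Y.act h).surjective x
  rw [Y.γ_act]; exact hz y

theorem σ_rad (s : S) {z : st.E} (hz : z ∈ Y.rad) : Y.σ s z ∈ Y.rad := fun x => by
  obtain ⟨y, rfl⟩ := (Y.σ s).surjective x
  rw [Y.γ_σ]; exact hz y

theorem ν_K_mul_e (k : st.K) :
    InvRep.ν (k : G) * R.e = R.u (k : G) * R.Λ (R.Q (k : G) : Matrix (Fin d) (Fin d) ℂ) := by
  rw [InvRep.u, mul_assoc, R.Λ_mul, Units.inv_mul]; rfl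

theorem rad_comm_K (k : st.K) {z : st.E} (hz : z ∈ Y.rad) :
    InvRep.ν (k : G) * Y.w z = Y.w z * InvRep.ν (k : G) := by
  obtain ⟨c, hc, h⟩ := Y.w_form k
  have hu : R.u (k : G) = c⁻¹ • Y.w (st.q k) := by rw [h, smul_smul, inv_mul_cancel₀ hc, one_smul]
  have hwz : Y.w z * Y.w (st.q k) = Y.w (st.q k) * Y.w z := by
    rw [Y.w_mul, Y.w_mul, Y.rad_left hz, hz, mul_comm z]
  conv_lhs => rw [← Y.e_mul_w z, ← mul_assoc, ν_K_mul_e, hu, mul_assoc, Y.w_comm_Λ,
    smul_mul_assoc, ← mul_assoc, ← hwz, mul_assoc, ← mul_smul_comm, ← smul_mul_assoc, ← hu,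
    ← ν_K_mul_e, ← R.e_comm, ← mul_assoc, ← R.e_comm, Y.e_mul_w]

noncomputable local instance eFintype : Fintype st.E := Fintype.ofFinite _

noncomputable local instance radFintype : Fintype Y.rad := Fintype.ofFinite _

/-- The radical idempotent. -/
noncomputable def P0 : 𝔸 := (Nat.card Y.rad : ℂ)⁻¹ • ∑ z : Y.rad, Y.w z

/-- The square of the normalisation. -/
noncomputable def scale : ℂ :=
  (IsAlgClosed.exists_pow_nat_eq ((Nat.card st.E : ℂ) * Nat.card Y.rad) (n := 2) two_pos).choose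

theorem scale_sq : Y.scale ^ 2 = (Nat.card st.E : ℂ) * Nat.card Y.rad :=
  (IsAlgClosed.exists_pow_nat_eq ((Nat.card st.E : ℂ) * Nat.card Y.rad) (n := 2) two_pos).choose_spec

/-- The parity element. -/
noncomputable def T : 𝔸 := Y.scale⁻¹ • ∑ x : st.E, Y.w x

theorem sum_γ (z : st.E) : ∑ x : st.E, (Y.γ x z : ℂ) =
    if (∀ x, Y.γ x z = 1) then (Nat.card st.E : ℂ) else 0 := by
  split_ifs with h
  · simp [h, Nat.card_eq_fintype_card]
  · exact sum_hom_units_eq_zero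
      ((Units.coeHom ℂ).comp (MonoidHom.mk' (fun x => Y.γ x z) fun x y => Y.γ_mul_left x y z))
      fun e => h fun x => Units.ext (DFunLike.congr_fun e x)

theorem T_mul_T : Y.T * Y.T = Y.P0 := by
  classical
  have h1 : (∑ x : st.E, Y.w x) * (∑ x : st.E, Y.w x) =
      ∑ z : st.E, (∑ x : st.E, (Y.γ x z : ℂ)) • Y.w z := by
    rw [Finset.sum_mul]
    simp_rw [Finset.mul_sum, Finset.sum_smul, Y.w_mul]
    conv_rhs => rw [Finset.sum_comm]
    refine Finset.sum_congr rfl fun x _ => Fintype.sum_equiv (Equiv.mulLeft x) _ _ fun y => ?_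
    rw [Equiv.coe_mulLeft, Y.γ_mul_right, Y.γ_self, one_mul]
  rw [T, smul_mul_smul_comm, h1]
  simp_rw [Y.sum_γ, ite_smul, zero_smul]
  rw [← Finset.sum_filter, ← Finset.smul_sum, smul_smul, P0]
  congr 1
  · have hs := Y.scale_sq
    have hE : (Nat.card st.E : ℂ) ≠ 0 := Nat.cast_ne_zero.mpr Nat.card_pos.ne'
    have hR : (Nat.card Y.rad : ℂ) ≠ 0 := Nat.cast_ne_zero.mpr Nat.card_pos.ne'
    rw [← mul_inv, ← pow_two, hs, mul_inv, mul_comm _ (Nat.card Y.rad : ℂ)⁻¹, mul_assoc,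
      inv_mul_cancel₀ hE, mul_one]
  · exact Finset.sum_subtype _ (fun x => by simp [Y.mem_rad]) _

theorem e_mul_P0 : R.e * Y.P0 = Y.P0 := by
  simp_rw [P0, mul_smul_comm, Finset.mul_sum, Y.e_mul_w]

theorem T_comm_L (a : L) : InvRep.ν (a : G) * Y.T = Y.T * InvRep.ν (a : G) := by
  simp_rw [T, mul_smul_comm, smul_mul_assoc, Finset.mul_sum, Finset.sum_mul, Y.w_comm_L]

theorem T_comm_H (h : st.H) : InvRep.ν (h : G) * Y.T = Y.T * InvRep.ν (h : G) := by
  simp_rw [T, mul_smul_comm, smul_mul_assoc, Finset.mul_sum, Finset.sum_mul, Y.ν_H]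
  congr 1
  exact Fintype.sum_equiv (Y.act h).toEquiv _ _ fun x => rfl

theorem T_swap (x : st.E) : Y.T * Y.w x = Y.w x⁻¹ * Y.T := by
  simp_rw [T, smul_mul_assoc, mul_smul_comm, Finset.mul_sum, Finset.sum_mul, Y.w_mul]
  congr 1
  trans ∑ z : st.E, (Y.γ z x : ℂ) • Y.w z
  · refine Fintype.sum_equiv (Equiv.mulRight x) _ _ fun y => ?_
    rw [Equiv.coe_mulRight, Y.γ_mul_left, Y.γ_self, mul_one]
  · symm
    refine Fintype.sum_equiv (Equiv.mulLeft x⁻¹) _ _ fun y => ?_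
    rw [Equiv.coe_mulLeft, Y.γ_mul_left x⁻¹ y x, Y.γ_inv_left x x, Y.γ_self, inv_one, one_mul,
      Y.γ_inv_left x y, Y.γ_swap x y]

theorem P0_comm (g : G) : InvRep.ν g * Y.P0 = Y.P0 * InvRep.ν g := by
  obtain ⟨k, hk, h, hh, rfl⟩ := st.sup g
  have h1 : InvRep.ν h * Y.P0 = Y.P0 * InvRep.ν h := by
    simp_rw [P0, mul_smul_comm, smul_mul_assoc, Finset.mul_sum, Finset.sum_mul, Y.ν_H ⟨h, hh⟩]
    congr 1
    let f : Y.rad → Y.rad := fun z => ⟨Y.act ⟨h, hh⟩ z, Y.act_rad _ z.2⟩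
    have hf : Function.Injective f := fun a b e =>
      Subtype.ext ((Y.act ⟨h, hh⟩).injective (congrArg Subtype.val e))
    exact Fintype.sum_bijective f ⟨hf, Finite.injective_iff_surjective.mp hf⟩ _ _ fun z => rfl
  have h2 : InvRep.ν k * Y.P0 = Y.P0 * InvRep.ν k := by
    simp_rw [P0, mul_smul_comm, smul_mul_assoc, Finset.mul_sum, Finset.sum_mul]
    congr 1
    exact Finset.sum_congr rfl fun z _ => Y.rad_comm_K ⟨k, hk⟩ z.2
  rw [map_mul, mul_assoc, h1, ← mul_assoc, h2, mul_assoc]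

theorem act_fpf (h : st.H) (y : st.E) (hy : Y.act h y = y⁻¹) : y = 1 := by
  obtain ⟨k, rfl⟩ := st.q_surj y
  have key : ∀ j : ℕ, ∃ m : st.K, (m : G) = (h : G) ^ j * k * ((h : G) ^ j)⁻¹ ∧
      st.q m = if Even j then st.q k else (st.q k)⁻¹ := by
    intro j
    induction j with
    | zero => exact ⟨k, by simp, by simp⟩
    | succ j ih =>
      obtain ⟨m, hm, hq⟩ := ih
      obtain ⟨m', hm', hq'⟩ := Y.act_q h m
      refine ⟨m', by rw [hm', hm, pow_succ']; group, ?_⟩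
      rw [hq', hq]
      by_cases hj : Even j
      · simp [hj, hy, Nat.even_add_one]
      · simp [hj, hy, Nat.even_add_one]
  obtain ⟨m, hm, hq⟩ := key (Nat.card G)
  rw [if_neg (Nat.not_even_iff_odd.mpr st.odd)] at hq
  have hmk : m = k := Subtype.ext (by rw [hm, pow_card_eq_one']; simp)
  rw [hmk] at hq
  have h2 : st.q k ^ 2 = 1 := by rw [pow_two]; exact eq_inv_iff_mul_eq_one.mp hq
  have h3 := pow_gcd_eq_one.mpr ⟨h2, pow_card_eq_one' (x := st.q k)⟩
  rwa [(Nat.coprime_two_left.mpr st.odd_E : Nat.gcd 2 (Nat.card st.E) = 1), pow_one] at h3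

variable {n : Type*} [Fintype n] [DecidableEq n] (ρ : G →* Matrix n n ℂ)

/-- The extension to the group algebra. -/
noncomputable abbrev liftRep : 𝔸 →ₐ[ℂ] Matrix n n ℂ := MonoidAlgebra.lift ℂ (Matrix n n ℂ) G ρ

omit [Fintype G] in
theorem liftRep_ν (g : G) : liftRep ρ (InvRep.ν g) = ρ g := by simp [liftRep]

variable (hP : liftRep ρ Y.P0 = 1)

include hP in
theorem rep_e : liftRep ρ R.e = 1 := by
  have h := congrArg (liftRep ρ) Y.e_mul_P0
  rwa [map_mul, hP, mul_one] at h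

include hP in
theorem rep_w_mul_inv (x : st.E) : liftRep ρ (Y.w x) * liftRep ρ (Y.w x⁻¹) = 1 := by
  rw [← map_mul, Y.w_mul, Y.γ_inv_right, Y.γ_self, inv_one, Units.val_one, one_smul, mul_inv_cancel,
    Y.w_one, Y.rep_e ρ hP]

/-- The image of a member of the system. -/
noncomputable def W (x : st.E) : (Matrix n n ℂ)ˣ :=
  ⟨liftRep ρ (Y.w x), liftRep ρ (Y.w x⁻¹), Y.rep_w_mul_inv ρ hP x, by
    simpa using Y.rep_w_mul_inv ρ hP x⁻¹⟩

/-- The data of the parity operator in a representation. -/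
noncomputable def op : Op st.K st.H L st.E n where
  ρ := ρ
  q := st.q
  W := Y.W ρ hP
  T := liftRep ρ Y.T
  act := Y.act
  sup := st.sup
  act_fpf := Y.act_fpf
  sq := by rw [← map_mul, Y.T_mul_T, hP]
  comm_of_comm X hX := by
    have : ∀ a : 𝔸, liftRep ρ a * X = X * liftRep ρ a := fun a => by
      refine MonoidAlgebra.induction_on (motive := fun a => liftRep ρ a * X = X * liftRep ρ a) a
        (fun g => ?_) (fun x y hx hy => ?_) (fun r x hx => ?_)
      · show liftRep ρ (InvRep.ν g) * X = X * liftRep ρ (InvRep.ν g)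
        rw [liftRep_ν, hX]
      · rw [map_add, add_mul, mul_add, hx, hy]
      · rw [map_smul, smul_mul_assoc, mul_smul_comm, hx]
    exact this _
  comm_H h hh := by rw [← liftRep_ν ρ h, ← map_mul, ← map_mul, Y.T_comm_H ⟨h, hh⟩]
  comm_L l hl := by rw [← liftRep_ν ρ l, ← map_mul, ← map_mul, Y.T_comm_L ⟨l, hl⟩]
  swap x := by
    show liftRep ρ Y.T * liftRep ρ (Y.w x) = liftRep ρ (Y.w x⁻¹) * liftRep ρ Y.T
    rw [← map_mul, ← map_mul, Y.T_swap]
  W_mul x y := ⟨Y.γ x y, by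
    show liftRep ρ (Y.w x) * liftRep ρ (Y.w y) = _ • liftRep ρ (Y.w (x * y))
    rw [← map_mul, Y.w_mul, map_smul]⟩
  W_L x l hl := by
    show liftRep ρ (Y.w x) * ρ l = ρ l * liftRep ρ (Y.w x)
    rw [← liftRep_ν ρ l, ← map_mul, ← map_mul, Y.w_comm_L x ⟨l, hl⟩]
  W_H h x := by
    show ρ h * liftRep ρ (Y.w x) = liftRep ρ (Y.w (Y.act h x)) * ρ h
    rw [← liftRep_ν ρ (h : G), ← map_mul, ← map_mul, Y.ν_H]
  conj_eq k X hX := by
    obtain ⟨c, hc, h⟩ := Y.w_form k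
    have he := Y.rep_e ρ hP
    have hW : (Y.W ρ hP (st.q k) : Matrix n n ℂ) = c • liftRep ρ (R.u (k : G)) := by
      show liftRep ρ (Y.w (st.q k)) = _
      rw [h, map_smul]
    have hWi : (((Y.W ρ hP (st.q k))⁻¹ : (Matrix n n ℂ)ˣ) : Matrix n n ℂ) =
        c⁻¹ • liftRep ρ (R.u' (k : G)) := by
      refine Units.inv_eq_of_mul_eq_one_right ?_
      rw [hW, smul_mul_smul_comm, mul_inv_cancel₀ hc, one_smul, ← map_mul, R.u_mul_u', he]
    have hΛ : liftRep ρ (R.Λ (R.Q (k : G) : Matrix (Fin d) (Fin d) ℂ)) * X =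
        X * liftRep ρ (R.Λ (R.Q (k : G) : Matrix (Fin d) (Fin d) ℂ)) := by
      rw [R.Λ_apply, map_sum, Finset.sum_mul, Finset.mul_sum]
      refine Finset.sum_congr rfl fun l _ => ?_
      rw [map_smul, smul_mul_assoc, mul_smul_comm, liftRep_ν, hX _ l.2]
    rw [hW, hWi, Matrix.smul_mul, Matrix.smul_mul, Matrix.mul_smul, smul_smul, mul_inv_cancel₀ hc,
      one_smul]
    have h1 : ρ (k : G) = liftRep ρ (R.u (k : G)) * liftRep ρ (R.Λ (R.Q (k : G) : Matrix (Fin d) (Fin d) ℂ)) := by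
      rw [← map_mul, ← ν_K_mul_e, map_mul, he, mul_one, liftRep_ν]
    rw [h1, mul_assoc (liftRep ρ (R.u (k : G))), hΛ, mul_assoc, mul_assoc, mul_assoc]
    congr 2
    rw [InvRep.u', map_mul, liftRep_ν]

include Y hP in
/-- The coefficients of the twisted restriction. -/
theorem exists_coeffs [Fintype st.H] :
    ∃ c : Cfsg.IrrCharacter st.H → ℤ,
      (∀ ψ : Cfsg.IrrCharacter st.H, ∃ b : ℕ,
        Cfsg.classInner (fun h : st.H => (ρ h).trace) ψ.1 = (b : ℂ) ∧ Even (c ψ - b)) ∧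
      Cfsg.classInner (fun g => (ρ g).trace) (fun g => (ρ g).trace) = ∑ ψ, ((c ψ : ℂ)) ^ 2 := by
  classical
  haveI : Fintype st.K := Fintype.ofFinite _
  let ρH : st.H →* Matrix n n ℂ := ρ.comp st.H.subtype
  set T := liftRep ρ Y.T with hT
  have hsq : T * T = 1 := (Y.op ρ hP).sq
  have hTH : ∀ h : st.H, T * ρH h = ρH h * T := fun h => (Y.op ρ hP).comm_H _ h.2
  set P := (2⁻¹ : ℂ) • (1 + T) with hPdef
  have hPP : P * P = P := by
    rw [hPdef, smul_mul_smul_comm, add_mul, mul_add, mul_add, hsq, one_mul, mul_one, one_mul,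
      show (1 : Matrix n n ℂ) + T + (T + 1) = (2 : ℂ) • (1 + T) by rw [two_smul]; abel, smul_smul]
    norm_num
  have hPc : ∀ h, P * ρH h = ρH h * P := fun h => by
    rw [hPdef, smul_mul_assoc, mul_smul_comm, add_mul, mul_add, hTH, one_mul, mul_one]
  have hA := isCharacter_idem ρH P hPP hPc
  have hB := isCharacter_matrix ρH
  choose a ha using fun ψ => H26.exists_nat_classInner_irr hA ψ
  choose b hb using fun ψ => H26.exists_nat_classInner_irr hB ψ
  set δ : st.H → ℂ := fun h => (T * ρH h).trace with hδdef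
  have hδ : δ = (2 : ℂ) • (fun h => (P * ρH h).trace) - fun h => (ρH h).trace := by
    funext h
    simp [hδdef, hPdef, add_mul, Matrix.trace_add]
    ring
  have hcl : Cfsg.IsClassFunction st.H δ := by
    intro g h
    show (T * ρH (h * g * h⁻¹)).trace = (T * ρH g).trace
    rw [map_mul, map_mul, ← mul_assoc, ← mul_assoc, hTH, Matrix.trace_mul_comm, ← mul_assoc,
      ← mul_assoc, ← map_mul, inv_mul_cancel, map_one, one_mul]
  have hδc : ∀ ψ : Cfsg.IrrCharacter st.H, Cfsg.classInner δ ψ.1 = ((2 * (a ψ : ℤ) - b ψ : ℤ) : ℂ) := by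
    intro ψ
    rw [hδ, H26.classInner_sub_left, H26.classInner_smul_left, ha, hb]
    push_cast; ring
  refine ⟨fun ψ => 2 * (a ψ : ℤ) - b ψ, fun ψ => ⟨b ψ, hb ψ, ⟨(a ψ : ℤ) - b ψ, by ring⟩⟩, ?_⟩
  have hfib : ∀ g : G, Nat.card {p : st.K × st.H // (p.1 : G) * p.2 = g} = Nat.card L := by
    intro g
    obtain ⟨k₀, hk, h₀, hh, rfl⟩ := st.sup g
    symm
    refine Nat.card_eq_of_bijective (fun l : L => (⟨(⟨k₀ * l, mul_mem hk (st.L_le_K l.2)⟩,
      ⟨(l : G)⁻¹ * h₀, mul_mem (inv_mem (st.L_le_H l.2)) hh⟩), by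
        show k₀ * (l : G) * ((l : G)⁻¹ * h₀) = k₀ * h₀
        group⟩ : {p : st.K × st.H // (p.1 : G) * p.2 = k₀ * h₀})) ⟨fun l l' e => ?_, fun p => ?_⟩
    · exact Subtype.ext (mul_left_cancel (congrArg (fun q : {p : st.K × st.H // (p.1 : G) * p.2 = k₀ * h₀} => (q.1.1 : G)) e))
    · obtain ⟨⟨⟨k, hk'⟩, ⟨h, hh'⟩⟩, hp⟩ := p
      have hp' : k * h = k₀ * h₀ := hp
      have hl : k₀⁻¹ * k ∈ L := by
        refine st.inf _ (mul_mem (inv_mem hk) hk') ?_
        rw [show k₀⁻¹ * k = h₀ * h⁻¹ by rw [eq_mul_inv_iff_mul_eq, mul_assoc, hp', inv_mul_cancel_left]]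
        exact mul_mem hh (inv_mem hh')
      refine ⟨⟨_, hl⟩, Subtype.ext (Prod.ext (Subtype.ext (mul_inv_cancel_left _ _)) (Subtype.ext ?_))⟩
      show (k₀⁻¹ * k)⁻¹ * h₀ = h
      rw [mul_inv_rev, inv_inv, mul_assoc, ← hp', inv_mul_cancel_left]
  have hnorm := (Y.op ρ hP).norm_eq st.L_le_H hfib
  have hconj : ∀ h : st.H, conj (δ h) = (ρ (h : G)⁻¹ * T).trace := by
    intro h
    rw [Matrix.trace_mul_comm, show ρ (h : G)⁻¹ = ρH h⁻¹ from rfl, hδ]
    simp only [Pi.sub_apply, Pi.smul_apply, smul_eq_mul, map_sub, map_mul, Complex.conj_ofNat]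
    rw [← H26.inv_eq_conj_of_isCharacter hA, ← H26.inv_eq_conj_of_isCharacter hB]
    have := congrFun hδ h⁻¹
    simpa [hδdef] using this.symm
  have hG := isCharacter_matrix ρ
  calc Cfsg.classInner (fun g => (ρ g).trace) (fun g => (ρ g).trace)
      = (Nat.card G : ℂ)⁻¹ * ∑ g : G, (ρ g).trace * (ρ g⁻¹).trace := by
        rw [Cfsg.classInner]
        exact congrArg _ (Finset.sum_congr rfl fun g _ => by rw [← H26.inv_eq_conj_of_isCharacter hG g])
    _ = Cfsg.classInner δ δ := by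
        refine hnorm.trans ?_
        rw [Cfsg.classInner]
        exact congrArg _ (Finset.sum_congr rfl fun h _ => by rw [hconj]; rfl)
    _ = _ := by
        rw [H26.classInner_eq_sum δ δ hcl]
        refine Finset.sum_congr rfl fun ψ _ => ?_
        rw [hδc, map_intCast, pow_two]

end Sys

end Cfsg.Agent.H44.Parity
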