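import Cfsg.Agent.H44.Parity.Heart

/-!
# The odd-multiplicity correspondence over one invariant character
-/

set_option autoImplicit false

namespace Cfsg.Agent.H44.Parity

open scoped ComplexConjugate
open Sys

theorem existsUnique_of_sum_sq_eq_one {ι : Type*} [Fintype ι] (c : ι → ℤ) (h : ∑ i, c i ^ 2 = 1) :
    ∃! i, Odd (c i) := by
  classical
  have h1 : ∃ i, c i ≠ 0 := by
    by_contra hno
    push Not at hno
    simp [hno] at h
  obtain ⟨i, hi⟩ := h1
  have hsq : (1 : ℤ) ≤ c i ^ 2 := by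
    have : 0 < c i ^ 2 := by positivity
    omega
  rw [← Finset.add_sum_erase Finset.univ (fun j => c j ^ 2) (Finset.mem_univ i)] at h
  have hnn : (0 : ℤ) ≤ ∑ j ∈ Finset.univ.erase i, c j ^ 2 := Finset.sum_nonneg fun j _ => sq_nonneg _
  have hci : c i ^ 2 = 1 := by linarith
  refine ⟨i, ?_, fun j hj => ?_⟩
  · rcases sq_eq_one_iff.mp hci with e | e <;> rw [e] <;> decide
  · by_contra hne
    have := (Finset.sum_eq_zero_iff_of_nonneg (fun j _ => sq_nonneg (c j))).mp
      (by linarith : ∑ j ∈ Finset.univ.erase i, c j ^ 2 = 0) j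
      (Finset.mem_erase.mpr ⟨hne, Finset.mem_univ _⟩)
    rw [pow_eq_zero_iff (two_ne_zero)] at this
    have hj' : Odd (c j) := hj
    rw [this] at hj'
    exact absurd hj' (by decide)

/-- The block sum of two matrix homomorphisms. -/
noncomputable def blockHom {G : Type*} [Group G] {a b : Type*} [Fintype a] [Fintype b] [DecidableEq a] [DecidableEq b]
    (A : G →* Matrix a a ℂ) (B : G →* Matrix b b ℂ) : G →* Matrix (a ⊕ b) (a ⊕ b) ℂ where
  toFun g := Matrix.fromBlocks (A g) 0 0 (B g)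
  map_one' := by rw [map_one, map_one, Matrix.fromBlocks_one]
  map_mul' g h := by simp [Matrix.fromBlocks_multiply]

variable {G : Type*} [Group G] [Fintype G] {S : Type*} [Group S] [Finite S] {L : Subgroup G}
  [L.Normal] [Fintype L] {st : Setup G S L} {d : ℕ} {R : InvRep L d} [Fintype st.H]

local notation "𝔸" => MonoidAlgebra ℂ G

theorem liftRep_blockHom {a b : Type*} [Fintype a] [Fintype b] [DecidableEq a] [DecidableEq b]
    (A : G →* Matrix a a ℂ) (B : G →* Matrix b b ℂ) (x : 𝔸) :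
    liftRep (blockHom A B) x = Matrix.fromBlocks (liftRep A x) 0 0 (liftRep B x) := by
  refine MonoidAlgebra.induction_on (motive := fun x =>
    liftRep (blockHom A B) x = Matrix.fromBlocks (liftRep A x) 0 0 (liftRep B x)) x (fun g => ?_)
    (fun x y hx hy => ?_) (fun r x hx => ?_)
  · show liftRep (blockHom A B) (InvRep.ν g) =
      Matrix.fromBlocks (liftRep A (InvRep.ν g)) 0 0 (liftRep B (InvRep.ν g))
    rw [liftRep_ν, liftRep_ν, liftRep_ν]; rfl
  · rw [map_add, map_add, map_add, hx, hy, Matrix.fromBlocks_add, add_zero, add_zero]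
  · rw [map_smul, map_smul, map_smul, hx, Matrix.fromBlocks_smul, smul_zero, smul_zero]

theorem liftRep_comp_mulEquiv {n : Type*} [Fintype n] [DecidableEq n] (A : G →* Matrix n n ℂ)
    (α : MulAut G) (x : 𝔸) :
    liftRep (A.comp α.toMonoidHom) x = liftRep A (MonoidAlgebra.domCongr ℂ ℂ α x) := by
  refine MonoidAlgebra.induction_on (motive := fun x =>
    liftRep (A.comp α.toMonoidHom) x = liftRep A (MonoidAlgebra.domCongr ℂ ℂ α x)) x (fun g => ?_)
    (fun x y hx hy => ?_) (fun r x hx => ?_)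
  · show liftRep (A.comp α.toMonoidHom) (InvRep.ν g) =
      liftRep A (MonoidAlgebra.domCongr ℂ ℂ α (InvRep.ν g))
    rw [show MonoidAlgebra.domCongr ℂ ℂ α (InvRep.ν g) = InvRep.ν (α g) by
        simp [MonoidAlgebra.of_apply], liftRep_ν, liftRep_ν]
    rfl
  · rw [map_add, map_add, map_add, hx, hy]
  · rw [map_smul, map_smul, map_smul, hx]

/-- The trace of the idempotent is the multiplicity over the character, up to the degree. -/
theorem trace_liftRep_e {m : ℕ} (A : G →* Matrix (Fin m) (Fin m) ℂ) :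
    (liftRep A R.e).trace = (d : ℂ) * Cfsg.classInner (fun l : L => (A l).trace) R.chi := by
  rw [InvRep.e, R.Λ_apply, map_sum]
  simp_rw [map_smul, liftRep_ν]
  exact R.trace_e le_top (A.comp (⊤ : Subgroup G).subtype)

theorem liftRep_e_eq_one {m : ℕ} (A : G →* Matrix (Fin m) (Fin m) ℂ)
    (hA : ∀ X, (∀ g, A g * X = X * A g) → ∃ c : ℂ, X = c • 1)
    (hover : Cfsg.classInner (fun l : L => (A l).trace) R.chi ≠ 0) : liftRep A R.e = 1 := by
  rw [InvRep.e, R.Λ_apply, map_sum]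
  simp_rw [map_smul, liftRep_ν]
  haveI : Fintype (⊤ : Subgroup G) := Fintype.ofFinite _
  exact R.e_eq_one le_top (A.comp (⊤ : Subgroup G).subtype) (fun X hX => hA X fun g => hX ⟨g, trivial⟩) hover

namespace Sys

variable (Y : Sys st R)

include Y in
theorem existsUnique_of_P0 (χ : Cfsg.IrrCharacter G) {m : ℕ} (A : G →* Matrix (Fin m) (Fin m) ℂ)
    (htr : ∀ g, (A g).trace = χ.1 g) (hP : liftRep A Y.P0 = 1) : ∃! ψ, OddIn st χ.1 ψ := by
  classical
  obtain ⟨c, hb, hn⟩ := Y.exists_coeffs A hP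
  have heq : (fun g => (A g).trace) = χ.1 := funext htr
  rw [heq, H26.classInner_irr χ χ, if_pos rfl] at hn
  have hn' : ∑ ψ, c ψ ^ 2 = 1 := by exact_mod_cast hn.symm
  have hiff : ∀ ψ, OddIn st χ.1 ψ ↔ Odd (c ψ) := by
    intro ψ
    obtain ⟨b, hb1, hb2⟩ := hb ψ
    simp only [htr] at hb1
    rw [OddIn, H43.mult_eq_of_classInner hb1, ← Int.odd_coe_nat, Int.even_sub'.mp hb2]
  simpa only [hiff] using existsUnique_of_sum_sq_eq_one c hn'

include Y in
theorem eq_of_P0 (χ χ' : Cfsg.IrrCharacter G) {m m' : ℕ} (A : G →* Matrix (Fin m) (Fin m) ℂ)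
    (A' : G →* Matrix (Fin m') (Fin m') ℂ) (htr : ∀ g, (A g).trace = χ.1 g)
    (htr' : ∀ g, (A' g).trace = χ'.1 g) (hP : liftRep A Y.P0 = 1) (hP' : liftRep A' Y.P0 = 1)
    (ψ : Cfsg.IrrCharacter st.H) (ho : OddIn st χ.1 ψ) (ho' : OddIn st χ'.1 ψ) : χ = χ' := by
  classical
  by_contra hne
  obtain ⟨c, hb, hn⟩ := Y.exists_coeffs (blockHom A A')
    (by rw [liftRep_blockHom, hP, hP', Matrix.fromBlocks_one])
  have htb : ∀ g, (blockHom A A' g).trace = χ.1 g + χ'.1 g := fun g => by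
    rw [← htr, ← htr']
    simp [blockHom, Matrix.trace, Matrix.fromBlocks, Fintype.sum_sum_type]
  have heq : (fun g => (blockHom A A' g).trace) = χ.1 + χ'.1 := funext htb
  rw [heq, H26.classInner_add_left, H26.classInner_add_right, H26.classInner_add_right,
    H26.classInner_irr, H26.classInner_irr, H26.classInner_irr, H26.classInner_irr, if_pos rfl,
    if_pos rfl, if_neg hne, if_neg (Ne.symm hne)] at hn
  norm_num at hn
  have hn' : ∑ φ, c φ ^ 2 = 2 := by exact_mod_cast hn.symm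
  have hev : ∀ φ, Even (c φ) := by
    intro φ
    obtain ⟨b, hb1, hb2⟩ := hb φ
    obtain ⟨b1, hb1'⟩ := H26.exists_nat_classInner_irr (isCharacter_matrix (A.comp st.H.subtype)) φ
    obtain ⟨b2, hb2'⟩ := H26.exists_nat_classInner_irr (isCharacter_matrix (A'.comp st.H.subtype)) φ
    simp only [MonoidHom.comp_apply, Subgroup.subtype_apply, htr] at hb1'
    simp only [MonoidHom.comp_apply, Subgroup.subtype_apply, htr'] at hb2'
    simp only [htb] at hb1
    rw [show (fun h : st.H => χ.1 h + χ'.1 h) = (fun h : st.H => χ.1 h) + fun h : st.H => χ'.1 h from rfl,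
      H26.classInner_add_left, hb1', hb2'] at hb1
    have hbb : b = b1 + b2 := by exact_mod_cast hb1.symm
    have hu := Y.existsUnique_of_P0 χ A htr hP
    have hu' := Y.existsUnique_of_P0 χ' A' htr' hP'
    have h1 : Odd b1 ↔ φ = ψ := by
      rw [← H43.mult_eq_of_classInner hb1']
      exact ⟨fun h => hu.unique h ho, fun h => h ▸ ho⟩
    have h2 : Odd b2 ↔ φ = ψ := by
      rw [← H43.mult_eq_of_classInner hb2']
      exact ⟨fun h => hu'.unique h ho', fun h => h ▸ ho'⟩
    refine (Int.even_sub.mp hb2).mpr ((Int.even_coe_nat b).mpr ?_)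
    rw [hbb, Nat.even_add, ← Nat.not_odd_iff_even, ← Nat.not_odd_iff_even, h1, h2]
  have h4 : (4 : ℤ) ∣ ∑ φ, c φ ^ 2 := Finset.dvd_sum fun φ _ => by
    obtain ⟨r, hr⟩ := hev φ
    exact ⟨r ^ 2, by rw [hr]; ring⟩
  rw [hn'] at h4
  norm_num at h4

include Y in
theorem exists_odd_P0 (ψ : Cfsg.IrrCharacter st.H) (hψ : OverH st R ψ.1) :
    ∃ (χ : Cfsg.IrrCharacter G) (m : ℕ) (A : G →* Matrix (Fin m) (Fin m) ℂ),
      (∀ g, (A g).trace = χ.1 g) ∧ 0 < m ∧ liftRep A Y.P0 = 1 ∧ OddIn st χ.1 ψ := by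
  classical
  choose dim A hdim htr hsch using fun χ : Cfsg.IrrCharacter G => exists_matrix_rep χ
  by_contra hno
  push Not at hno
  set mu : Cfsg.IrrCharacter G → ℕ := fun χ => H43.mult (fun h : st.H => χ.1 h) ψ with hmu
  have hind : ∀ g, ∑ χ, (mu χ : ℂ) * χ.1 g = Cfsg.indFun st.H ψ.1 g := by
    intro g
    conv_rhs => rw [H26.class_function_expansion (Cfsg.indFun st.H ψ.1)
      (H25.isClassFunction_indFun st.H ψ.1)]
    rw [Finset.sum_apply]
    refine Finset.sum_congr rfl fun χ _ => ?_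
    have hm2 : Cfsg.classInner (fun h : st.H => χ.1 h) ψ.1 = (mu χ : ℂ) :=
      H43.classInner_eq_mult (H26.isCharacter_comp (H26.irr_isCharacter χ) st.H.subtype) ψ
    rw [Pi.smul_apply, smul_eq_mul, H26.classInner_comm χ.1, H25.classInner_indFun_right _ _ _
      (H26.irr_isClassFunction χ), hm2, map_natCast]
  let F : 𝔸 →ₗ[ℂ] ℂ := ∑ χ, (mu χ : ℂ) •
    ((Matrix.traceLinearMap (Fin (dim χ)) ℂ ℂ).comp (liftRep (A χ)).toLinearMap)
  have hFa : ∀ a, F a = ∑ χ, (mu χ : ℂ) * (liftRep (A χ) a).trace := fun a => by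
    simp [F, LinearMap.sum_apply]
  have hFν : ∀ g, F (InvRep.ν g) = Cfsg.indFun st.H ψ.1 g := fun g => by
    rw [← hind, hFa]
    exact Finset.sum_congr rfl fun χ _ => by rw [liftRep_ν, htr]
  have hzero : ∀ g ∈ st.K, g ∉ L → Cfsg.indFun st.H ψ.1 g = 0 := by
    intro g hg hgL
    rw [Cfsg.indFun, Finset.sum_eq_zero, mul_zero]
    intro x _
    refine Function.extend_apply' _ _ _ ?_
    rintro ⟨h, hh⟩
    have h1 : x⁻¹ * g * x ∈ st.K := by
      have := st.K_normal.conj_mem g hg x⁻¹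
      rwa [inv_inv] at this
    have h2 := st.inf _ h1 (hh ▸ h.2)
    have := (inferInstance : L.Normal).conj_mem _ h2 x
    exact hgL (by simpa [mul_assoc] using this)
  obtain ⟨mψ, Aψ, hmψ, htrψ, hschψ⟩ := exists_matrix_rep ψ
  have heψ : (∑ l : L, R.coef 1 l • Aψ (Subgroup.inclusion st.L_le_H l)) = 1 :=
    R.e_eq_one st.L_le_H Aψ hschψ (by have h := hψ; rw [OverH] at h; simpa only [htrψ] using h)
  have hψ1 : ∑ l : L, R.coef 1 l * ψ.1 (Subgroup.inclusion st.L_le_H l) = (mψ : ℂ) := by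
    have h := congrArg Matrix.trace heψ
    rw [Matrix.trace_sum, Matrix.trace_one, Fintype.card_fin] at h
    rw [← h]
    exact Finset.sum_congr rfl fun l _ => by rw [Matrix.trace_smul, htrψ, smul_eq_mul]
  have hFe : F R.e = (Nat.card st.H : ℂ)⁻¹ * ((Nat.card G : ℂ) * mψ) := by
    rw [InvRep.e, R.Λ_apply, map_sum]
    simp_rw [map_smul, smul_eq_mul]
    simp_rw [hFν, Cfsg.indFun, Finset.mul_sum]
    rw [Finset.sum_comm]
    have : ∀ x : G, ∑ l : L, R.coef 1 l * ((Nat.card st.H : ℂ)⁻¹ *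
        Cfsg.extendByZero st.H ψ.1 (x⁻¹ * (l : G) * x)) = (Nat.card st.H : ℂ)⁻¹ * mψ := by
      intro x
      rw [← hψ1, Finset.mul_sum]
      refine Fintype.sum_equiv (MulAut.conjNormal (x⁻¹ : G) : MulAut L).toEquiv _ _ fun l => ?_
      show _ = (Nat.card st.H : ℂ)⁻¹ * (R.coef 1 (MulAut.conjNormal x⁻¹ l) *
        ψ.1 (Subgroup.inclusion st.L_le_H (MulAut.conjNormal x⁻¹ l)))
      have hc : R.coef 1 (MulAut.conjNormal x⁻¹ l) = R.coef 1 l := by
        rw [InvRep.coef, InvRep.coef, one_mul, one_mul, ← map_inv,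
          R.inv x⁻¹ l⁻¹ _ (MulAut.conjNormal_apply _ _)]
      have hv : ((MulAut.conjNormal x⁻¹ l : L) : G) = x⁻¹ * (l : G) * x := by
        rw [MulAut.conjNormal_apply, inv_inv]
      rw [hc, Cfsg.extendByZero, ← hv, show ((MulAut.conjNormal x⁻¹ l : L) : G) =
        ((Subgroup.inclusion st.L_le_H (MulAut.conjNormal x⁻¹ l) : st.H) : G) from rfl,
        Subtype.val_injective.extend_apply]
      ring
    rw [Finset.sum_congr rfl fun x _ => this x, Finset.sum_const, Finset.card_univ,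
      ← Nat.card_eq_fintype_card, nsmul_eq_mul]
    ring
  have hFw : ∀ z : st.E, z ≠ 1 → F (Y.w z) = 0 := by
    intro z hz
    obtain ⟨k, rfl⟩ := st.q_surj z
    obtain ⟨c, -, h⟩ := Y.w_form k
    rw [h, map_smul, smul_eq_mul, InvRep.u, R.Λ_apply, Finset.mul_sum]
    simp_rw [mul_smul_comm, ← map_mul]
    rw [map_sum, Finset.sum_eq_zero, mul_zero]
    intro l _
    rw [map_smul, smul_eq_mul, hFν, hzero _ (mul_mem k.2 (st.L_le_K l.2)) (fun hm => hz (st.q_eq_one.mpr ?_)), mul_zero]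
    simpa using mul_mem hm (inv_mem l.2)
  letI : Fintype Y.rad := Y.radFintype
  have hFP : F Y.P0 = (Nat.card Y.rad : ℂ)⁻¹ * F R.e := by
    rw [Sys.P0, map_smul, smul_eq_mul, map_sum, Finset.sum_eq_single (1 : Y.rad)]
    · rw [OneMemClass.coe_one, Y.w_one]
    · intro z _ hz
      exact hFw _ (fun e => hz (Subtype.ext e))
    · intro h; exact absurd (Finset.mem_univ _) h
  have hterm : ∀ χ, ∃ N : ℕ, (mu χ : ℂ) * (liftRep (A χ) Y.P0).trace = ((2 * N : ℕ) : ℂ) := by
    intro χ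
    by_cases h0 : liftRep (A χ) Y.P0 = 0
    · exact ⟨0, by simp [h0]⟩
    · have hP1 := eq_one_of_idem (hsch χ _ (Sys.liftRep_central (A χ) Y.P0_comm))
        (by rw [← map_mul, Y.P0_idem]) h0
      obtain ⟨r, hr⟩ := Nat.not_odd_iff_even.mp (hno χ _ (A χ) (htr χ) (hdim χ) hP1)
      refine ⟨r * dim χ, ?_⟩
      rw [hP1, Matrix.trace_one, Fintype.card_fin, hmu]
      simp only
      rw [show H43.mult (fun h : st.H => χ.1 h) ψ = r + r from hr]
      push_cast; ring
  choose N hN using hterm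
  have hsum : F Y.P0 = ((2 * ∑ χ, N χ : ℕ) : ℂ) := by
    rw [hFa, Finset.mul_sum, Nat.cast_sum]
    exact Finset.sum_congr rfl fun χ _ => hN χ
  rw [hFP, hFe] at hsum
  have hH : (Nat.card st.H : ℂ) ≠ 0 := Nat.cast_ne_zero.mpr Nat.card_pos.ne'
  have hR : (Nat.card Y.rad : ℂ) ≠ 0 := Nat.cast_ne_zero.mpr Nat.card_pos.ne'
  field_simp at hsum
  have hnat : Nat.card G * mψ = 2 * (∑ χ, N χ) * (Nat.card Y.rad * Nat.card st.H) := by
    have h' : ((Nat.card G * mψ : ℕ) : ℂ) =
        ((2 * (∑ χ, N χ) * (Nat.card Y.rad * Nat.card st.H) : ℕ) : ℂ) := by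
      push_cast at hsum ⊢
      linear_combination hsum
    exact_mod_cast h'
  have hmodd : Odd mψ := by
    have h1 : Cfsg.charDegree ψ.1 = mψ := by
      have h := H43.irr_charDegree_spec ψ
      rw [← htrψ, map_one, Matrix.trace_one, Fintype.card_fin] at h
      exact_mod_cast h.symm
    have h2 := H43.irr_charDegree_dvd ψ
    rw [h1] at h2
    exact (st.odd.of_dvd_nat (Subgroup.card_subgroup_dvd_card st.H)).of_dvd_nat h2
  have := st.odd.mul hmodd
  rw [hnat, Nat.odd_mul, Nat.odd_mul] at this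
  exact absurd this.1.1 (by decide)

theorem domCongr_P0 (s : S) : MonoidAlgebra.domCongr ℂ ℂ (st.act s) Y.P0 = Y.P0 := by
  letI : Fintype Y.rad := Fintype.ofFinite _
  simp_rw [Sys.P0, map_smul, map_sum, Y.alg_w]
  congr 1
  let f : Y.rad → Y.rad := fun z => ⟨Y.σ s z, Y.σ_rad s z.2⟩
  have hi : Function.Injective f := fun a b e =>
    Subtype.ext ((Y.σ s).injective (congrArg Subtype.val e))
  exact Fintype.sum_bijective f ⟨hi, Finite.injective_iff_surjective.mp hi⟩ _ _ fun z => rfl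

end Sys

theorem act_mem_H (s : S) {h : G} (hh : h ∈ st.H) : st.act s h ∈ st.H := by
  obtain ⟨l, hl, c, hc, rfl⟩ := st.fix_H h hh
  rw [map_mul, hc]
  exact mul_mem (st.L_le_H (st.act_L s l hl))
    (by have := mul_mem (inv_mem (st.L_le_H hl)) hh; rwa [inv_mul_cancel_left] at this)

/-- The correspondence over one invariant character. -/
theorem correspondence (hS : ∀ s, ∀ l l' : L, (l' : G) = st.act s l → (R.θ l').trace = (R.θ l).trace) :
    (∀ χ : Cfsg.IrrCharacter G, InvS st χ.1 → Over R χ.1 → ∃! ψ, OddIn st χ.1 ψ) ∧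
    (∀ χ χ' : Cfsg.IrrCharacter G, InvS st χ.1 → InvS st χ'.1 → Over R χ.1 → Over R χ'.1 →
      ∀ ψ, OddIn st χ.1 ψ → OddIn st χ'.1 ψ → χ = χ') ∧
    (∀ ψ : Cfsg.IrrCharacter st.H, InvSH st ψ.1 → OverH st R ψ.1 →
      ∃ χ : Cfsg.IrrCharacter G, InvS st χ.1 ∧ Over R χ.1 ∧ OddIn st χ.1 ψ) := by
  obtain ⟨Y⟩ := exists_sys st R hS
  have key : ∀ χ : Cfsg.IrrCharacter G, InvS st χ.1 → Over R χ.1 →
      ∃ (m : ℕ) (A : G →* Matrix (Fin m) (Fin m) ℂ), (∀ g, (A g).trace = χ.1 g) ∧
        liftRep A Y.P0 = 1 := by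
    intro χ hinv hover
    obtain ⟨m, A, hm, htr, hA⟩ := exists_matrix_rep χ
    have he : liftRep A R.e = 1 := liftRep_e_eq_one A hA (by have h := hover; rw [Over] at h; simpa only [htr] using h)
    exact ⟨m, A, htr, Y.P0_eq_one A hA hm (fun s g => by rw [htr, htr, hinv]) he⟩
  refine ⟨fun χ hinv hover => ?_, fun χ χ' hi hi' ho ho' ψ h h' => ?_, fun ψ hinv hover => ?_⟩
  · obtain ⟨m, A, htr, hP⟩ := key χ hinv hover
    exact Y.existsUnique_of_P0 χ A htr hP
  · obtain ⟨m, A, htr, hP⟩ := key χ hi ho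
    obtain ⟨m', A', htr', hP'⟩ := key χ' hi' ho'
    exact Y.eq_of_P0 χ χ' A A' htr htr' hP hP' ψ h h'
  · obtain ⟨χ, m, A, htr, hm, hP, hodd⟩ := Y.exists_odd_P0 ψ hover
    refine ⟨χ, fun s g => ?_, fun h0 => ?_, hodd⟩
    · let χs : Cfsg.IrrCharacter G := H43.irrCongr (st.act s) χ
      have hodd' : OddIn st χs.1 ψ := by
        rw [OddIn, H43.mult_eq_of_classInner (m := H43.mult (fun h : st.H => χ.1 h) ψ)]
        · exact hodd
        let e : st.H ≃* st.H :=
          { toFun := fun h => ⟨st.act s h, act_mem_H s h.2⟩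
            invFun := fun h => ⟨st.act s⁻¹ h, act_mem_H s⁻¹ h.2⟩
            left_inv := fun h => Subtype.ext (by
              show st.act s⁻¹ (st.act s (h : G)) = (h : G)
              rw [← MulAut.mul_apply, ← map_mul, inv_mul_cancel, map_one, MulAut.one_apply])
            right_inv := fun h => Subtype.ext (by
              show st.act s (st.act s⁻¹ (h : G)) = (h : G)
              rw [← MulAut.mul_apply, ← map_mul, mul_inv_cancel, map_one, MulAut.one_apply])
            map_mul' := fun a b => Subtype.ext (map_mul (st.act s) _ _) }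
        have hm2 : Cfsg.classInner (fun h : st.H => χ.1 h) ψ.1 =
            (H43.mult (fun h : st.H => χ.1 h) ψ : ℂ) :=
          H43.classInner_eq_mult (H26.isCharacter_comp (H26.irr_isCharacter χ) st.H.subtype) ψ
        rw [← hm2, ← H43.classInner_congr e (fun h : st.H => χ.1 h) ψ.1]
        refine congrArg₂ _ rfl (funext fun h => ?_)
        exact (hinv s h (e h) rfl).symm
      have heq : χs = χ := Y.eq_of_P0 χs χ (A.comp (st.act s).toMonoidHom) A
        (fun g => htr _) htr (by rw [liftRep_comp_mulEquiv, Y.domCongr_P0, hP]) hP ψ hodd' hodd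
      exact congrFun (congrArg Subtype.val heq) g
    · have h := trace_liftRep_e (R := R) A
      rw [Y.rep_e A hP, Matrix.trace_one, Fintype.card_fin] at h
      simp only [htr] at h
      rw [h0, mul_zero] at h
      exact absurd (Nat.cast_eq_zero.mp h) hm.ne'

end Cfsg.Agent.H44.Parity
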