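import Cfsg.Agent.H44.Parity.System

/-!
# The parity element and the radical idempotent in the group algebra
-/

set_option autoImplicit false

namespace Cfsg.Agent.H44.Parity

variable {G : Type*} [Group G] [Fintype G] {S : Type*} [Group S] [Finite S] {L : Subgroup G}
  [L.Normal] [Fintype L] (st : Setup G S L) {d : ℕ} (R : InvRep L d)

local notation "𝔸" => MonoidAlgebra ℂ G

/-- The symmetric system over an invariant character, with all its invariance properties. -/
structure Sys where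
  γ : st.E → st.E → ℂˣ
  γ_mul_left : ∀ x x' y, γ (x * x') y = γ x y * γ x' y
  γ_swap : ∀ x y, γ y x = (γ x y)⁻¹
  γ_self : ∀ x, γ x x = 1
  w : st.E → 𝔸
  w_one : w 1 = R.e
  w_mul : ∀ x y, w x * w y = (γ x y : ℂ) • w (x * y)
  w_form : ∀ k : st.K, ∃ c : ℂ, c ≠ 0 ∧ w (st.q k) = c • R.u k
  act : st.H → st.E ≃* st.E
  act_q : ∀ (h : st.H) (k : st.K), ∃ m : st.K, (m : G) = h * k * (h : G)⁻¹ ∧ st.q m = act h (st.q k)
  ν_H : ∀ (h : st.H) x, InvRep.ν (h : G) * w x = w (act h x) * InvRep.ν (h : G)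
  σ : S → st.E ≃* st.E
  σ_mul : ∀ s t x, σ (s * t) x = σ s (σ t x)
  σ_fpf : ∀ x, (∀ s, σ s x = x) → x = 1
  σ_act : ∀ s h x, σ s (act h x) = act h (σ s x)
  alg_w : ∀ s x, MonoidAlgebra.domCongr ℂ ℂ (st.act s) (w x) = w (σ s x)

variable {st R}

section Build

variable (α : MulAut G)

theorem symm_mem_iff {M : Subgroup G} (hM : ∀ x, α x ∈ M ↔ x ∈ M) {x : G} (hx : x ∈ M) :
    α.symm x ∈ M :=
  (hM _).mp (by rwa [MulEquiv.apply_symm_apply])

/-- The restriction to `K`. -/
def restrK (hK : ∀ x, α x ∈ st.K ↔ x ∈ st.K) : st.K ≃* st.K where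
  toFun k := ⟨α k, (hK _).mpr k.2⟩
  invFun k := ⟨α.symm k, symm_mem_iff α hK k.2⟩
  left_inv _ := Subtype.ext (α.symm_apply_apply _)
  right_inv _ := Subtype.ext (α.apply_symm_apply _)
  map_mul' _ _ := Subtype.ext (map_mul α _ _)

/-- An automorphism of the data from one of the group. -/
noncomputable def autoOf (hL : ∀ x, α x ∈ L ↔ x ∈ L) (hK : ∀ x, α x ∈ st.K ↔ x ∈ st.K)
    (hc : ∀ l l' : L, (l' : G) = α l → (R.θ l').trace = (R.θ l).trace) : Auto st R where
  α := α
  down := QuotientGroup.congr (L.subgroupOf st.K) (L.subgroupOf st.K) (restrK α hK) (by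
    ext x
    constructor
    · rintro ⟨y, hy, rfl⟩
      exact (hL _).mpr hy
    · intro hx
      exact ⟨(restrK α hK).symm x, symm_mem_iff α hL hx, (restrK α hK).apply_symm_apply x⟩)
  mapL := hL
  mapK k := ⟨(hK _).mpr k.2, rfl⟩
  char := hc

theorem autoOf_down (hL : ∀ x, α x ∈ L ↔ x ∈ L) (hK : ∀ x, α x ∈ st.K ↔ x ∈ st.K)
    (hc : ∀ l l' : L, (l' : G) = α l → (R.θ l').trace = (R.θ l).trace) (k : st.K) :
    (autoOf α hL hK hc).down (st.q k) = st.q (restrK α hK k) := rfl

end Build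

theorem conj_mem_iff {M : Subgroup G} (hM : M.Normal) (g x : G) : MulAut.conj g x ∈ M ↔ x ∈ M := by
  rw [MulAut.conj_apply]
  exact ⟨fun h => by simpa [mul_assoc] using hM.conj_mem _ h g⁻¹, fun h => hM.conj_mem _ h g⟩

theorem act_mem_iff {M : Subgroup G} (hM : ∀ s, ∀ x ∈ M, st.act s x ∈ M) (s : S) (x : G) :
    st.act s x ∈ M ↔ x ∈ M := by
  refine ⟨fun h => ?_, hM s x⟩
  have h' := hM s⁻¹ _ h
  rwa [← MulAut.mul_apply, ← map_mul, inv_mul_cancel, map_one, MulAut.one_apply] at h'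

/-- The automorphism of the data from conjugation. -/
noncomputable def autoConj (g : G) : Auto st R :=
  autoOf (MulAut.conj g) (conj_mem_iff inferInstance g) (conj_mem_iff st.K_normal g)
    fun l l' h => R.inv g l l' h

/-- The automorphism of the data from the acting group. -/
noncomputable def autoAct (hS : ∀ s, ∀ l l' : L, (l' : G) = st.act s l → (R.θ l').trace = (R.θ l).trace)
    (s : S) : Auto st R :=
  autoOf (st.act s) (act_mem_iff st.act_L s) (act_mem_iff st.act_K s) (hS s)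

theorem Auto.alg_comp (a b c : Auto st R) (h : ∀ g, c.α g = a.α (b.α g)) (x : 𝔸) :
    c.alg x = a.alg (b.alg x) := by
  refine MonoidAlgebra.induction_on (motive := fun x => c.alg x = a.alg (b.alg x)) x (fun g => ?_)
    (fun x y hx hy => ?_) (fun r x hx => ?_)
  · show c.alg (InvRep.ν g) = a.alg (b.alg (InvRep.ν g))
    rw [b.alg_ν, a.alg_ν, c.alg_ν, h]
  · rw [map_add, map_add, map_add, hx, hy]
  · rw [map_smul, map_smul, map_smul, hx]

theorem autoConj_alg (g : G) (x : 𝔸) :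
    (autoConj (st := st) (R := R) g).alg x = InvRep.ν g * x * InvRep.ν g⁻¹ := by
  refine MonoidAlgebra.induction_on
    (motive := fun x => (autoConj (st := st) (R := R) g).alg x = InvRep.ν g * x * InvRep.ν g⁻¹) x
    (fun y => ?_) (fun x y hx hy => ?_) (fun r x hx => ?_)
  · show (autoConj g).alg (InvRep.ν y) = InvRep.ν g * InvRep.ν y * InvRep.ν g⁻¹
    rw [Auto.alg_ν, ← map_mul, ← map_mul]
    rfl
  · rw [map_add, mul_add, add_mul, hx, hy]
  · rw [map_smul, mul_smul_comm, smul_mul_assoc, hx]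

variable (st R)

/-- The system exists. -/
theorem exists_sys (hS : ∀ s, ∀ l l' : L, (l' : G) = st.act s l → (R.θ l').trace = (R.θ l).trace) :
    Nonempty (Sys st R) := by
  classical
  let σA : S → Auto st R := autoAct hS
  have hdown : ∀ s t x, (σA (s * t)).down x = (σA s).down ((σA t).down x) := by
    intro s t x
    obtain ⟨k, rfl⟩ := st.q_surj x
    exact congrArg st.q (Subtype.ext (by
      show st.act (s * t) (k : G) = st.act s (st.act t (k : G))
      rw [map_mul, MulAut.mul_apply]))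
  have hfpf : ∀ x, (∀ s, (σA s).down x = x) → x = 1 := by
    intro x hx
    obtain ⟨k, rfl⟩ := st.q_surj x
    refine st.q_eq_one.mpr (st.fpf _ k.2 fun s => ?_)
    refine (st.q_eq_one (k := k⁻¹ * restrK (st.act s) (act_mem_iff st.act_K s) k)).mp ?_
    rw [map_mul, map_inv, ← autoOf_down (R := R) _ (act_mem_iff st.act_L s) _ (hS s), inv_mul_eq_one]
    exact (hx s).symm
  obtain ⟨W, hW, hWs, hWa⟩ := (ext st R).exists_fixed_weyl st.coprime_E (fun s => (σA s).symm)
    (fun s t u => by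
      refine Subtype.ext (Prod.ext (Units.ext ?_) ?_)
      · rw [Auto.symm_up_fst, Auto.symm_up_fst, Auto.symm_up_fst]
        exact Auto.alg_comp _ _ _ (fun g => by
          show st.act (s * t) g = st.act s (st.act t g)
          rw [map_mul, MulAut.mul_apply]) _
      · rw [Auto.symm_up_snd, Auto.symm_up_snd, Auto.symm_up_snd]
        exact hdown s t _)
    hdown hfpf
  have hW2 : ∀ x, (W x).1.2 = x := hW.section_
  have hWk : ∀ k : st.K, ∃ c : ℂ, c ≠ 0 ∧
      R.e * (((W (st.q k)).1.1 : 𝔸ˣ) : 𝔸) = c • R.u k := by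
    intro k
    obtain ⟨c, hc, h⟩ := mem_form st R (W (st.q k)).2 k (hW2 _).symm
    refine ⟨c, hc, ?_⟩
    rw [h, mul_add, mul_sub, mul_one, R.e_idem, sub_self, add_zero, mul_smul_comm, e_mul_u]
  have hmul : ∀ x y, (((W x).1.1 : 𝔸ˣ) : 𝔸) * ((W y).1.1 : 𝔸ˣ) =
      ((((ext st R).γ x y : ℂˣ) : ℂ) • R.e + (1 - R.e)) * ((W (x * y)).1.1 : 𝔸ˣ) := fun x y =>
    congrArg (fun p : unitsGroup st R => ((p.1.1 : 𝔸ˣ) : 𝔸)) (hW.mul x y)
  -- conjugation by centralised elements
  have hconj : ∀ c, (∀ s, st.act s c = c) → ∀ x,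
      (autoConj (st := st) (R := R) c).alg ((W x).1.1 : 𝔸ˣ) =
        ((W ((autoConj (st := st) (R := R) c).down x)).1.1 : 𝔸ˣ) := by
    intro c hc x
    have h := hWa (autoConj c).symm (fun s u => by
        refine Subtype.ext (Prod.ext (Units.ext ?_) ?_)
        · rw [Auto.symm_up_fst, Auto.symm_up_fst, Auto.symm_up_fst, Auto.symm_up_fst]
          let comb : Auto st R := autoOf ((MulAut.conj c) * st.act s)
            (fun x => (conj_mem_iff inferInstance c _).trans (act_mem_iff st.act_L s x))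
            (fun x => (conj_mem_iff st.K_normal c _).trans (act_mem_iff st.act_K s x))
            (fun l l' h => by rw [R.inv c ⟨st.act s l, st.act_L s _ l.2⟩ l' h, hS s l _ rfl])
          refine (Auto.alg_comp (autoConj c) (σA s) comb (fun g => rfl) _).symm.trans
            (Auto.alg_comp (σA s) (autoConj c) comb (fun g => ?_) _)
          show MulAut.conj c (st.act s g) = st.act s (MulAut.conj c g)
          rw [MulAut.conj_apply, MulAut.conj_apply, map_mul, map_mul, map_inv, hc]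
        · rw [Auto.symm_up_snd, Auto.symm_up_snd, Auto.symm_up_snd, Auto.symm_up_snd]
          obtain ⟨k, hk⟩ := st.q_surj u.1.2
          rw [← hk]
          exact congrArg st.q (Subtype.ext (by
            show MulAut.conj c (st.act s k) = st.act s (MulAut.conj c k)
            rw [MulAut.conj_apply, MulAut.conj_apply, map_mul, map_mul, map_inv, hc])))
      (fun s y => by
        obtain ⟨k, rfl⟩ := st.q_surj y
        exact congrArg st.q (Subtype.ext (by
          show MulAut.conj c (st.act s k) = st.act s (MulAut.conj c k)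
          rw [MulAut.conj_apply, MulAut.conj_apply, map_mul, map_mul, map_inv, hc]))) x
    exact congrArg (fun p : unitsGroup st R => ((p.1.1 : 𝔸ˣ) : 𝔸)) h
  set act : st.H → (st.E ≃* st.E) := fun h => (autoConj (st := st) (R := R) (h : G)).down with hact
  have hactc : ∀ h : st.H, ∃ l ∈ L, ∃ c, (∀ s, st.act s c = c) ∧ (h : G) = l * c ∧
      ∀ x, act h x = (autoConj (st := st) (R := R) c).down x := by
    intro h
    obtain ⟨l, hl, c, hc, e⟩ := st.fix_H _ h.2
    refine ⟨l, hl, c, hc, e, fun x => ?_⟩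
    obtain ⟨k, rfl⟩ := st.q_surj x
    show st.q ⟨MulAut.conj (h : G) k, _⟩ = st.q ⟨MulAut.conj c k, _⟩
    set m : st.K := ⟨MulAut.conj c k, (conj_mem_iff st.K_normal c _).mpr k.2⟩ with hm
    refine (mul_inv_eq_one (b := st.q m)).mp ?_
    rw [← map_inv, ← map_mul]
    refine st.q_eq_one.mpr ?_
    show MulAut.conj (h : G) k * (c * k * c⁻¹)⁻¹ ∈ L
    rw [e, show MulAut.conj (l * c) (k : G) * (c * k * c⁻¹)⁻¹ =
      l * ((c * k * c⁻¹) * l⁻¹ * (c * k * c⁻¹)⁻¹) by rw [MulAut.conj_apply]; group]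
    exact mul_mem hl ((inferInstance : L.Normal).conj_mem _ (inv_mem hl) _)
  refine ⟨⟨(ext st R).γ, (ext st R).γ_mul_left, (ext st R).γ_swap, (ext st R).γ_self,
    fun x => R.e * (((W x).1.1 : 𝔸ˣ) : 𝔸), ?_, ?_, hWk, act,
    fun h k => ⟨⟨MulAut.conj (h : G) k, (conj_mem_iff st.K_normal _ _).mpr k.2⟩, rfl, rfl⟩, ?_,
    fun s => (σA s).down, hdown, hfpf, ?_, ?_⟩⟩
  · rw [hW.map_one]
    exact mul_one _
  · intro x y
    calc R.e * (((W x).1.1 : 𝔸ˣ) : 𝔸) * (R.e * ((W y).1.1 : 𝔸ˣ))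
        = R.e * R.e * ((((W x).1.1 : 𝔸ˣ) : 𝔸) * ((W y).1.1 : 𝔸ˣ)) := by
          rw [mul_assoc R.e _ (R.e * _), ← mul_assoc _ R.e, ← R.e_comm (((W x).1.1 : 𝔸ˣ) : 𝔸),
            mul_assoc R.e _ ((W y).1.1 : 𝔸ˣ).1, ← mul_assoc R.e R.e]
      _ = _ := by
          rw [R.e_idem, hmul, ← mul_assoc, mul_add, mul_smul_comm, R.e_idem, mul_sub, mul_one,
            R.e_idem, sub_self, add_zero, smul_mul_assoc]
  · intro h x
    obtain ⟨l, hl, c, hc, e, hx⟩ := hactc h
    have h1 := hconj c hc x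
    rw [autoConj_alg, ← hx x] at h1
    have h2 : InvRep.ν c * (((W x).1.1 : 𝔸ˣ) : 𝔸) = (((W (act h x)).1.1 : 𝔸ˣ) : 𝔸) * InvRep.ν c := by
      rw [← h1, mul_assoc _ (InvRep.ν c⁻¹), ← map_mul, inv_mul_cancel, map_one, mul_one]
    rw [← mul_assoc, ← R.e_comm, mul_assoc, mul_assoc]
    congr 1
    rw [e, map_mul, mul_assoc, h2, ← mul_assoc, mem_comm_L st R (W _).2 ⟨l, hl⟩, mul_assoc]
  · intro s h x
    obtain ⟨l, hl, c, hc, e, hx⟩ := hactc h
    rw [hx, hx]
    obtain ⟨k, rfl⟩ := st.q_surj x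
    exact congrArg st.q (Subtype.ext (by
      show st.act s (MulAut.conj c k) = MulAut.conj c (st.act s k)
      rw [MulAut.conj_apply, MulAut.conj_apply, map_mul, map_mul, map_inv, hc]))
  · intro s x
    show (σA s).alg (R.e * _) = _
    rw [map_mul, Auto.alg_e]
    congr 1
    exact congrArg (fun p : unitsGroup st R => ((p.1.1 : 𝔸ˣ) : 𝔸)) (hWs s x)

end Cfsg.Agent.H44.Parity
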