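import Cfsg.Agent.H44.Parity.Coeffs
import Cfsg.Agent.H43.CharTools
import Cfsg.Agent.H26.CharReal
import Cfsg.Agent.H25.CharInd

/-!
# Odd-multiplicity correspondence over an invariant character
-/

set_option autoImplicit false

namespace Cfsg.Agent.H44.Parity

open scoped ComplexConjugate

/-- A matrix representation affording an irreducible character. -/
theorem exists_matrix_rep {H : Type*} [Group H] [Fintype H] (χ : Cfsg.IrrCharacter H) :
    ∃ (m : ℕ) (A : H →* Matrix (Fin m) (Fin m) ℂ), 0 < m ∧ (∀ g, (A g).trace = χ.1 g) ∧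
      ∀ X, (∀ g, A g * X = X * A g) → ∃ c : ℂ, X = c • 1 := by
  obtain ⟨m, ρ, hρ, e⟩ := χ.2
  refine ⟨m, H26.matHom ρ, ?_, fun g => ?_, fun X hX => H26.matrix_schur ρ X hX⟩
  · have := H26.finrank_pos_of_isIrreducible ρ
    rwa [Module.finrank_fin_fun] at this
  · rw [H26.trace_matHom, ← e]; rfl

/-- A scalar idempotent with nonzero trace is one. -/
theorem eq_one_of_idem {m : ℕ} {P : Matrix (Fin m) (Fin m) ℂ} (hc : ∃ c : ℂ, P = c • 1)
    (hP : P * P = P) (h0 : P ≠ 0) : P = 1 := by
  obtain ⟨c, rfl⟩ := hc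
  have hc0 : c ≠ 0 := fun h => h0 (by rw [h, zero_smul])
  rw [smul_mul_smul_comm, one_mul] at hP
  have h1 : (1 : Matrix (Fin m) (Fin m) ℂ) = c • 1 := by
    have h := congrArg (fun X => c⁻¹ • X) hP
    simp only [smul_smul] at h
    rw [← mul_assoc, inv_mul_cancel₀ hc0, one_mul, one_smul] at h
    exact h.symm
  exact h1.symm

section InvRep

variable {G : Type*} [Group G] [Fintype G] {L : Subgroup G} [L.Normal] [Fintype L] {d : ℕ}
  (R : InvRep L d)

/-- The character of the representation. -/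
def InvRep.chi (l : L) : ℂ := (R.θ l).trace

theorem InvRep.chi_inv (l : L) : R.chi l⁻¹ = conj (R.chi l) :=
  H26.inv_eq_conj_of_isCharacter (isCharacter_matrix R.θ) l

/-- The idempotent in a representation of a group over `L`. -/
theorem InvRep.idem_lift {B : Type*} [Ring B] [Algebra ℂ B] (f : L →* B) :
    (∑ l : L, R.coef 1 l • f l) * (∑ l : L, R.coef 1 l • f l) = ∑ l : L, R.coef 1 l • f l := by
  have h1 : ∀ a : L, f a * (∑ l : L, R.coef 1 l • f l) = ∑ l : L, R.coef (R.θ a) l • f l := by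
    intro a
    rw [Finset.mul_sum]
    refine Fintype.sum_equiv (Equiv.mulLeft a) _ _ fun l => ?_
    rw [mul_smul_comm, ← map_mul, Equiv.coe_mulLeft]
    congr 1
    rw [InvRep.coef, InvRep.coef]
    congr 1
    rw [mul_inv_rev, map_mul, Matrix.trace_mul_comm (R.θ a), mul_assoc, R.θ_inv_mul, mul_one, one_mul]
  conv_lhs => rw [Finset.sum_mul]
  simp_rw [smul_mul_assoc, h1, Finset.smul_sum, smul_smul]
  rw [Finset.sum_comm]
  simp_rw [← Finset.sum_smul]
  refine Finset.sum_congr rfl fun l _ => ?_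
  congr 1
  conv_rhs => rw [← R.sum_coef 1]
  simp only [InvRep.coef, Finset.sum_mul, Matrix.trace_sum, Finset.mul_sum, smul_mul_assoc,
    Matrix.trace_smul, smul_eq_mul]
  exact Finset.sum_congr rfl fun a _ => by ring

theorem InvRep.trace_e {B : Subgroup G} {m : ℕ} (hB : L ≤ B) (A : B →* Matrix (Fin m) (Fin m) ℂ) :
    (∑ l : L, R.coef 1 l • A (Subgroup.inclusion hB l)).trace =
      (d : ℂ) * Cfsg.classInner (fun l : L => (A (Subgroup.inclusion hB l)).trace) R.chi := by
  rw [Matrix.trace_sum, Cfsg.classInner, Finset.mul_sum, Finset.mul_sum]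
  refine Finset.sum_congr rfl fun l _ => ?_
  rw [Matrix.trace_smul, InvRep.coef, one_mul, show (R.θ l⁻¹).trace = conj (R.chi l) from R.chi_inv l,
    smul_eq_mul]
  ring

/-- The idempotent is one in an irreducible representation lying over the character. -/
theorem InvRep.e_eq_one {B : Subgroup G} [Fintype B] {m : ℕ} (hB : L ≤ B)
    (A : B →* Matrix (Fin m) (Fin m) ℂ) (hA : ∀ X, (∀ g, A g * X = X * A g) → ∃ c : ℂ, X = c • 1)
    (hover : Cfsg.classInner (fun l : L => (A (Subgroup.inclusion hB l)).trace) R.chi ≠ 0) :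
    ∑ l : L, R.coef 1 l • A (Subgroup.inclusion hB l) = 1 := by
  refine eq_one_of_idem (hA _ fun g => ?_) (R.idem_lift (A.comp (Subgroup.inclusion hB))) fun h0 => ?_
  · rw [Finset.mul_sum, Finset.sum_mul]
    refine Fintype.sum_equiv (MulAut.conjNormal (g : G) : MulAut L).toEquiv _ _ fun l => ?_
    show A g * (R.coef 1 l • A (Subgroup.inclusion hB l)) =
      R.coef 1 (MulAut.conjNormal (g : G) l) •
        A (Subgroup.inclusion hB (MulAut.conjNormal (g : G) l)) * A g
    rw [mul_smul_comm, smul_mul_assoc, ← map_mul, ← map_mul]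
    congr 1
    · rw [InvRep.coef, InvRep.coef, one_mul, one_mul, ← map_inv,
        R.inv (g : G) l⁻¹ _ (MulAut.conjNormal_apply _ _)]
    · congr 1
      refine Subtype.ext ?_
      show (g : G) * (l : G) = ((MulAut.conjNormal (g : G) l : L) : G) * g
      rw [MulAut.conjNormal_apply]; group
  · have h := R.trace_e hB A
    rw [h0, Matrix.trace_zero] at h
    exact hover ((mul_eq_zero.mp h.symm).resolve_left R.d_ne)

end InvRep

section Heart

variable {G : Type*} [Group G] [Fintype G] {S : Type*} [Group S] [Finite S] {L : Subgroup G}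
  [L.Normal] [Fintype L] (st : Setup G S L) {d : ℕ} (R : InvRep L d) [Fintype st.H]

/-- Invariance of a function under the acting group. -/
def InvS (χ : G → ℂ) : Prop := ∀ s g, χ (st.act s g) = χ g

/-- Invariance of a function on the complement under the acting group. -/
def InvSH (ψ : st.H → ℂ) : Prop := ∀ s (h h' : st.H), (h' : G) = st.act s h → ψ h' = ψ h

/-- Lying over the character. -/
def Over (χ : G → ℂ) : Prop := Cfsg.classInner (fun l : L => χ l) R.chi ≠ 0

/-- Lying over the character, for the complement. -/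
def OverH (ψ : st.H → ℂ) : Prop :=
  Cfsg.classInner (fun l : L => ψ (Subgroup.inclusion st.L_le_H l)) R.chi ≠ 0

/-- Odd multiplicity in the restriction. -/
def OddIn (χ : G → ℂ) (ψ : Cfsg.IrrCharacter st.H) : Prop :=
  Odd (H43.mult (fun h : st.H => χ h) ψ)

variable {st R} (Y : Sys st R)

local notation "𝔸" => MonoidAlgebra ℂ G

namespace Sys

noncomputable local instance eFintype' : Fintype st.E := Fintype.ofFinite _

noncomputable local instance radFintype' : Fintype Y.rad := Fintype.ofFinite _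

theorem P0_mul_w {z : st.E} (hz : z ∈ Y.rad) : Y.P0 * Y.w z = Y.P0 := by
  simp_rw [Sys.P0, smul_mul_assoc, Finset.sum_mul, Y.w_mul]
  congr 1
  refine Fintype.sum_equiv (Equiv.mulRight (⟨z, hz⟩ : Y.rad)) _ _ fun y => ?_
  rw [hz, Units.val_one, one_smul]
  rfl

theorem P0_idem : Y.P0 * Y.P0 = Y.P0 := by
  conv_lhs => arg 2; rw [Sys.P0]
  rw [mul_smul_comm, Finset.mul_sum, Finset.sum_congr rfl (fun z _ => Y.P0_mul_w z.2),
    Finset.sum_const, Finset.card_univ, ← Nat.card_eq_fintype_card, ← Nat.cast_smul_eq_nsmul ℂ,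
    smul_smul, inv_mul_cancel₀ (Nat.cast_ne_zero.mpr Nat.card_pos.ne'), one_smul]

variable {m : ℕ} (A : G →* Matrix (Fin m) (Fin m) ℂ)
  (hA : ∀ X, (∀ g, A g * X = X * A g) → ∃ c : ℂ, X = c • 1)

omit [Fintype st.H] in
theorem liftRep_central {a : 𝔸} (ha : ∀ g, InvRep.ν g * a = a * InvRep.ν g) (g : G) :
    A g * liftRep A a = liftRep A a * A g := by
  rw [← liftRep_ν A g, ← map_mul, ← map_mul, ha]

include hA in
/-- The radical idempotent is one in an invariant irreducible representation over the character. -/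
theorem P0_eq_one (hm : 0 < m) (hinv : ∀ s g, (A (st.act s g)).trace = (A g).trace)
    (he : liftRep A R.e = 1) : liftRep A Y.P0 = 1 := by
  classical
  haveI : Finite (Y.rad →* ℂˣ) :=
    Finite.of_equiv _ (CommGroup.monoidHom_mulEquiv_of_hasEnoughRootsOfUnity Y.rad ℂ).some.symm.toEquiv
  haveI : Fintype (Y.rad →* ℂˣ) := Fintype.ofFinite _
  have hR : (Nat.card Y.rad : ℂ) ≠ 0 := Nat.cast_ne_zero.mpr Nat.card_pos.ne'
  set Pμ : (Y.rad →* ℂˣ) → 𝔸 := fun μ =>
    (Nat.card Y.rad : ℂ)⁻¹ • ∑ z : Y.rad, (μ z : ℂ)⁻¹ • Y.w z with hPμ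
  have hshift : ∀ μ (z : Y.rad), Pμ μ * Y.w z = (μ z : ℂ) • Pμ μ := by
    intro μ z
    simp only [hPμ]
    rw [smul_mul_assoc, Finset.sum_mul, smul_comm (μ z : ℂ) ((Nat.card Y.rad : ℂ)⁻¹),
      Finset.smul_sum (r := (μ z : ℂ))]
    congr 1
    refine Fintype.sum_equiv (Equiv.mulRight z) _ _ fun y => ?_
    rw [smul_mul_assoc, Y.w_mul, z.2, Units.val_one, one_smul, Equiv.coe_mulRight, smul_smul,
      Subgroup.coe_mul, map_mul, Units.val_mul, mul_inv, mul_left_comm,
      mul_inv_cancel₀ (μ z).ne_zero, mul_one]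
  have horth : ∀ μ ν : Y.rad →* ℂˣ, Pμ μ * Pμ ν = if μ = ν then Pμ μ else 0 := by
    intro μ ν
    conv_lhs => arg 2; rw [hPμ]
    simp_rw [mul_smul_comm, Finset.mul_sum, mul_smul_comm, hshift, smul_smul, ← Finset.sum_smul]
    split_ifs with h
    · subst h
      simp [hR, Nat.card_eq_fintype_card]
    · rw [show ∑ z : Y.rad, (ν z : ℂ)⁻¹ * (μ z : ℂ) = 0 from ?_, zero_smul, smul_zero]
      have := sum_hom_units_eq_zero (G := Y.rad) (R := ℂ) ((Units.coeHom ℂ).comp (μ / ν)) fun e => h ?_
      · rw [← this]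
        exact Finset.sum_congr rfl fun z _ => by simp [div_eq_mul_inv, mul_comm]
      · exact MonoidHom.ext fun z => by
          have := DFunLike.congr_fun e z
          simp only [MonoidHom.comp_apply, MonoidHom.div_apply, MonoidHom.one_apply,
            Units.coeHom_apply, Units.val_eq_one] at this
          exact div_eq_one.mp this
  have hsum : ∑ μ, Pμ μ = R.e := by
    have hdual : ∀ z : Y.rad, ∑ μ : Y.rad →* ℂˣ, ((μ z : ℂ))⁻¹ =
        if z = 1 then (Nat.card Y.rad : ℂ) else 0 := by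
      intro z
      split_ifs with h
      · subst h
        simp [← Nat.card_eq_fintype_card,
          CommGroup.card_monoidHom_of_hasEnoughRootsOfUnity Y.rad ℂ]
      · obtain ⟨l, hl⟩ := CommGroup.exists_apply_ne_one_of_hasEnoughRootsOfUnity Y.rad ℂ h
        have h1 : ∑ μ : Y.rad →* ℂˣ, ((μ z : ℂ))⁻¹ =
            (l z : ℂ)⁻¹ * ∑ μ : Y.rad →* ℂˣ, ((μ z : ℂ))⁻¹ := by
          rw [Finset.mul_sum]
          exact (Fintype.sum_equiv (Equiv.mulLeft l) _ _ fun μ => by
            simp [Equiv.coe_mulLeft, mul_comm]).symm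
        by_contra h0
        refine hl (Units.ext ?_)
        have h2 := (mul_eq_right₀ h0).mp h1.symm
        simpa using h2
    simp_rw [hPμ, ← Finset.smul_sum]
    rw [Finset.sum_comm]
    simp_rw [← Finset.sum_smul, hdual, ite_smul, zero_smul]
    rw [Finset.sum_ite_eq' Finset.univ (1 : Y.rad) fun z => (Nat.card Y.rad : ℂ) • Y.w z,
      if_pos (Finset.mem_univ _), smul_smul, inv_mul_cancel₀ hR, one_smul, OneMemClass.coe_one, Y.w_one]
  -- the maps of the radical
  let aR : st.H → Y.rad → Y.rad := fun h z => ⟨Y.act h z, Y.act_rad h z.2⟩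
  have haR : ∀ h, Function.Bijective (aR h) := fun h => by
    have hi : Function.Injective (aR h) := fun a b e =>
      Subtype.ext ((Y.act h).injective (congrArg Subtype.val e))
    exact ⟨hi, Finite.injective_iff_surjective.mp hi⟩
  let aM : st.H → (Y.rad →* Y.rad) := fun h => MonoidHom.mk' (aR h) fun a b =>
    Subtype.ext (map_mul (Y.act h) _ _)
  let σM : S → (Y.rad →* Y.rad) := fun s => MonoidHom.mk' (fun z => ⟨Y.σ s z, Y.σ_rad s z.2⟩)
    fun a b => Subtype.ext (map_mul (Y.σ s) _ _)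
  have hconj : ∀ (h : st.H) μ,
      InvRep.ν (h : G) * Pμ (μ.comp (aM h)) = Pμ μ * InvRep.ν (h : G) := by
    intro h μ
    simp_rw [hPμ, mul_smul_comm, smul_mul_assoc, Finset.mul_sum, Finset.sum_mul, mul_smul_comm,
      smul_mul_assoc, Y.ν_H]
    congr 1
    exact Fintype.sum_bijective (aR h) (haR h) _ _ fun z => rfl
  have halg : ∀ s μ, MonoidAlgebra.domCongr ℂ ℂ (st.act s) (Pμ (μ.comp (σM s))) = Pμ μ := by
    intro s μ
    simp_rw [hPμ, map_smul, map_sum, map_smul, Y.alg_w]
    congr 1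
    have hi : Function.Injective (σM s) := fun a b e =>
      Subtype.ext ((Y.σ s).injective (congrArg Subtype.val e))
    exact Fintype.sum_bijective (σM s) ⟨hi, Finite.injective_iff_surjective.mp hi⟩ _ _ fun z => rfl
  have htr : ∀ (s : S) (a : 𝔸),
      (liftRep A (MonoidAlgebra.domCongr ℂ ℂ (st.act s) a)).trace = (liftRep A a).trace := by
    intro s a
    refine MonoidAlgebra.induction_on (motive := fun a =>
      (liftRep A (MonoidAlgebra.domCongr ℂ ℂ (st.act s) a)).trace = (liftRep A a).trace) a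
      (fun g => ?_) (fun x y hx hy => ?_) (fun r x hx => ?_)
    · show (liftRep A (MonoidAlgebra.domCongr ℂ ℂ (st.act s) (InvRep.ν g))).trace =
        (liftRep A (InvRep.ν g)).trace
      rw [show MonoidAlgebra.domCongr ℂ ℂ (st.act s) (InvRep.ν g) = InvRep.ν (st.act s g) by
        simp [MonoidAlgebra.of_apply], liftRep_ν, liftRep_ν, hinv]
    · rw [map_add, map_add, map_add, Matrix.trace_add, Matrix.trace_add, hx, hy]
    · rw [map_smul, map_smul, map_smul, Matrix.trace_smul, Matrix.trace_smul, hx]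
  set M : (Y.rad →* ℂˣ) → Prop := fun μ => liftRep A (Pμ μ) ≠ 0 with hM
  have hMtr : ∀ μ, M μ ↔ (liftRep A (Pμ μ)).trace ≠ 0 := by
    intro μ
    refine ⟨fun h htr0 => h ?_, fun h h0 => h (by rw [h0, Matrix.trace_zero])⟩
    set f := Matrix.toLinAlgEquiv' (liftRep A (Pμ μ)) with hf
    have hid : IsIdempotentElem f := by
      show f * f = f
      rw [hf, ← map_mul, ← map_mul, horth, if_pos rfl]
    have hr : Module.finrank ℂ (LinearMap.range f) = 0 := by
      have h1 := (LinearMap.IsIdempotentElem.isProj_range f hid).trace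
      rw [hf, show LinearMap.trace ℂ (Fin m → ℂ) (Matrix.toLinAlgEquiv' (liftRep A (Pμ μ))) =
        (liftRep A (Pμ μ)).trace from Matrix.trace_toLin'_eq _, htr0] at h1
      exact_mod_cast h1.symm
    have hf0 : f = 0 := LinearMap.range_eq_bot.mp (Submodule.finrank_eq_zero.mp hr)
    exact Matrix.toLinAlgEquiv'.injective (hf0.trans (map_zero _).symm)
  obtain ⟨μ₀, hμ₀⟩ : ∃ μ, M μ := by
    by_contra hno
    push Not at hno
    have h1 := congrArg (liftRep A) hsum
    rw [he, map_sum, Finset.sum_eq_zero fun μ _ => not_not.mp (hno μ)] at h1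
    haveI : Nonempty (Fin m) := ⟨⟨0, hm⟩⟩
    exact zero_ne_one h1
  -- the orbit
  set O := (Finset.univ : Finset st.H).image fun h => μ₀.comp (aM h) with hO
  have hact_mul : ∀ (g h : st.H) z, Y.act (g * h) z = Y.act g (Y.act h z) := by
    intro g h z
    obtain ⟨k, rfl⟩ := st.q_surj z
    obtain ⟨a, ha, hqa⟩ := Y.act_q (g * h) k
    obtain ⟨b, hb, hqb⟩ := Y.act_q h k
    obtain ⟨c, hc, hqc⟩ := Y.act_q g b
    rw [← hqa, ← hqb, ← hqc]
    congr 1
    refine Subtype.ext ?_
    rw [ha, hc, hb, Subgroup.coe_mul]; group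
  have hcomp : ∀ (g h : st.H) (μ : Y.rad →* ℂˣ), (μ.comp (aM g)).comp (aM h) = μ.comp (aM (g * h)) :=
    fun g h μ => MonoidHom.ext fun z => congrArg μ (Subtype.ext (hact_mul g h z).symm)
  have hact1 : ∀ z, Y.act 1 z = z := by
    intro z
    have := hact_mul 1 1 z
    rw [one_mul] at this
    exact ((Y.act 1).injective this).symm
  set Q := ∑ μ ∈ O, Pμ μ with hQ
  have hQc : ∀ g, InvRep.ν g * Q = Q * InvRep.ν g := by
    intro g
    obtain ⟨k, hk, h, hh, rfl⟩ := st.sup g
    have h1 : InvRep.ν h * Q = Q * InvRep.ν h := by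
      rw [hQ, Finset.mul_sum, Finset.sum_mul]
      refine Finset.sum_bij' (fun μ _ => μ.comp (aM ⟨h, hh⟩⁻¹)) (fun μ _ => μ.comp (aM ⟨h, hh⟩))
        ?_ ?_ ?_ ?_ ?_
      · intro μ hμ
        obtain ⟨g, -, rfl⟩ := Finset.mem_image.mp hμ
        exact Finset.mem_image.mpr ⟨_, Finset.mem_univ _, (hcomp _ _ _).symm⟩
      · intro μ hμ
        obtain ⟨g, -, rfl⟩ := Finset.mem_image.mp hμ
        exact Finset.mem_image.mpr ⟨_, Finset.mem_univ _, (hcomp _ _ _).symm⟩
      · intro μ _
        show (μ.comp _).comp _ = μ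
        rw [hcomp, inv_mul_cancel]
        exact MonoidHom.ext fun z => congrArg μ (Subtype.ext (hact1 z))
      · intro μ _
        show (μ.comp _).comp _ = μ
        rw [hcomp, mul_inv_cancel]
        exact MonoidHom.ext fun z => congrArg μ (Subtype.ext (hact1 z))
      · intro μ _
        rw [← hconj ⟨h, hh⟩ (μ.comp (aM ⟨h, hh⟩⁻¹)), hcomp, inv_mul_cancel]
        congr 2
        exact MonoidHom.ext fun z => (congrArg μ (Subtype.ext (hact1 z))).symm
    have h2 : InvRep.ν k * Q = Q * InvRep.ν k := by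
      simp_rw [hQ, hPμ, Finset.mul_sum, Finset.sum_mul, mul_smul_comm, smul_mul_assoc,
        Finset.mul_sum, Finset.sum_mul, mul_smul_comm, smul_mul_assoc]
      exact Finset.sum_congr rfl fun μ _ => congrArg _
        (Finset.sum_congr rfl fun z _ => congrArg _ (Y.rad_comm_K ⟨k, hk⟩ z.2))
    rw [map_mul, mul_assoc, h1, ← mul_assoc, h2, mul_assoc]
  have hQμ : ∀ μ, Q * Pμ μ = if μ ∈ O then Pμ μ else 0 := by
    intro μ
    rw [hQ, Finset.sum_mul]
    simp_rw [horth]
    rw [Finset.sum_ite_eq' O μ (fun x => Pμ x)]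
  have hμ₀O : μ₀ ∈ O := Finset.mem_image.mpr ⟨1, Finset.mem_univ _,
    MonoidHom.ext fun z => congrArg μ₀ (Subtype.ext (hact1 z))⟩
  have hQQ : Q * Q = Q := by
    conv_lhs => arg 2; rw [hQ]
    rw [Finset.mul_sum, Finset.sum_congr rfl (fun μ hμ => by rw [hQμ, if_pos hμ])]
  have hQ1 : liftRep A Q = 1 := by
    refine eq_one_of_idem (hA _ (liftRep_central A hQc)) (by rw [← map_mul, hQQ]) fun h0 => hμ₀ ?_
    rw [← if_pos (t := Pμ μ₀) (e := 0) hμ₀O, ← hQμ, map_mul, h0, zero_mul]
  have hMO : ∀ μ, M μ → μ ∈ O := fun μ hμ => by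
    by_contra hn
    refine hμ ?_
    have h := congrArg (liftRep A) (hQμ μ)
    rwa [if_neg hn, map_mul, hQ1, one_mul, map_zero] at h
  -- every character occurring is fixed by the acting group
  have hfix : ∀ s z, μ₀ (σM s z) = μ₀ z := by
    intro s
    have hMs : M (μ₀.comp (σM s)) := by
      rw [hMtr, ← htr s, halg, ← hMtr]
      exact hμ₀
    obtain ⟨h, -, hh⟩ := Finset.mem_image.mp (hMO _ hMs)
    have hh' : ∀ z, μ₀ (aM h z) = μ₀ (σM s z) := fun z => DFunLike.congr_fun hh z
    have hσh : ∀ z, aM h (σM s z) = σM s (aM h z) := fun z => Subtype.ext (Y.σ_act s h z).symm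
    have hj : ∀ (j : ℕ) z, μ₀ (aM (h ^ j) z) = μ₀ (σM (s ^ j) z) := by
      intro j
      induction j with
      | zero =>
        intro z
        rw [pow_zero, pow_zero]
        congr 1
        refine Subtype.ext ((hact1 z).trans ?_)
        have := Y.σ_mul 1 1 z
        rw [one_mul] at this
        exact (Y.σ 1).injective this
      | succ j ih =>
        intro z
        have e1 : aM (h ^ (j + 1)) z = aM (h ^ j) (aM h z) := Subtype.ext (by
          rw [pow_succ]; exact hact_mul _ _ _)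
        have e2 : σM (s ^ (j + 1)) z = σM s (σM (s ^ j) z) := Subtype.ext (by
          rw [pow_succ']; exact Y.σ_mul _ _ _)
        have e3 : ∀ (i : ℕ) y, σM (s ^ i) (aM h y) = aM h (σM (s ^ i) y) :=
          fun i y => Subtype.ext (Y.σ_act _ h y)
        rw [e1, e2, ih, e3, hh']
    have hS : ∀ z, μ₀ (aM (h ^ Nat.card S) z) = μ₀ z := by
      intro z
      rw [hj, pow_card_eq_one']
      congr 1
      refine Subtype.ext ?_
      have := Y.σ_mul 1 1 z
      rw [one_mul] at this
      exact ((Y.σ 1).injective this).symm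
    have hSi : ∀ (i : ℕ) z, μ₀ (aM ((h ^ Nat.card S) ^ i) z) = μ₀ z := by
      intro i
      induction i with
      | zero => intro z; rw [pow_zero]; exact congrArg μ₀ (Subtype.ext (hact1 z))
      | succ i ih =>
        intro z
        rw [show aM ((h ^ Nat.card S) ^ (i + 1)) z = aM ((h ^ Nat.card S) ^ i) (aM (h ^ Nat.card S) z)
          from Subtype.ext (by rw [pow_succ]; exact hact_mul _ _ _), ih, hS]
    obtain ⟨i, hi⟩ : ∃ i : ℕ, (h ^ Nat.card S) ^ i = h := by
      have hco : (Nat.card S).Coprime (orderOf h) :=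
        (Nat.Coprime.coprime_dvd_left ((orderOf_dvd_natCard h).trans
          (Subgroup.card_subgroup_dvd_card st.H)) st.coprime).symm
      exact exists_pow_eq_self_of_coprime hco
    intro z
    rw [← hh', ← hi]
    exact hSi i z
  -- hence the character is trivial
  have hμ1 : μ₀ = 1 := by
    refine MonoidHom.ext fun z => ?_
    haveI : Fintype S := Fintype.ofFinite S
    have h1 : ∏ s : S, σM s z = 1 := by
      refine Subtype.ext ?_
      rw [SubmonoidClass.coe_finsetProd, OneMemClass.coe_one]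
      refine Y.σ_fpf _ fun t => ?_
      rw [map_prod]
      exact Fintype.prod_equiv (Equiv.mulLeft t) _ _ fun s => (Y.σ_mul t s z).symm
    have h2 := congrArg μ₀ h1
    rw [map_prod, map_one, Finset.prod_congr rfl (fun s _ => hfix s z), Finset.prod_const,
      Finset.card_univ, ← Nat.card_eq_fintype_card] at h2
    have h3 : μ₀ z ^ Nat.card st.E = 1 := by
      rw [← map_pow, show z ^ Nat.card st.E = 1 from Subtype.ext (by simp [pow_card_eq_one']), map_one]
    have h4 := pow_gcd_eq_one.mpr ⟨h3, h2⟩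
    rwa [st.coprime_E, pow_one] at h4
  have hP : Pμ 1 = Y.P0 := by simp [hPμ, Sys.P0]
  refine eq_one_of_idem (hA _ (liftRep_central A Y.P0_comm)) (by rw [← map_mul, Y.P0_idem]) ?_
  rw [← hP, ← hμ1]; exact hμ₀

end Sys

end Heart

end Cfsg.Agent.H44.Parity
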