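import Cfsg.Agent.H56.CliffordInertia
import Cfsg.Agent.H43.Constituents

/-!
# Correspondents in an inertia group, with multiplicities in restrictions
-/

set_option autoImplicit false

namespace Cfsg.Agent.H44.Parity

/-- Being a constituent is transitive along homomorphisms. -/
theorem constituent_trans {G D L : Type*} [Group G] [Group D] [Fintype D] [Group L] [Fintype L]
    {χ : G → ℂ} (hχ : Cfsg.IsCharacter G χ) (j : D →* G) (i : L →* D) (δ : Cfsg.IrrCharacter D)
    (φ : Cfsg.IrrCharacter L) (h1 : Cfsg.classInner (fun x => χ (j x)) δ.1 ≠ 0)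
    (h2 : Cfsg.classInner (fun l => δ.1 (i l)) φ.1 ≠ 0) :
    Cfsg.classInner (fun l => χ (j (i l))) φ.1 ≠ 0 := by
  classical
  have hc := H26.isCharacter_comp hχ j
  choose b hb using fun δ : Cfsg.IrrCharacter D =>
    H26.exists_nat_classInner_irr (H26.isCharacter_comp (H26.irr_isCharacter δ) i) φ
  obtain ⟨a, ha, he⟩ := H26.exists_nat_coeffs hc
  have h : (fun l => χ (j (i l))) = ∑ η : Cfsg.IrrCharacter D, (a η : ℂ) • fun l => η.1 (i l) := by
    funext l
    have := congrFun he (i l)
    simp only [Finset.sum_apply, Pi.smul_apply] at this ⊢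
    exact this
  have hv : Cfsg.classInner (fun l => χ (j (i l))) φ.1 = ((∑ η, a η * b η : ℕ) : ℂ) := by
    rw [h, H26.classInner_sum_left, Nat.cast_sum]
    exact Finset.sum_congr rfl fun η _ => by
      rw [H26.classInner_smul_left, show Cfsg.classInner (fun l => η.1 (i l)) φ.1 = _ from hb η, Nat.cast_mul]
  rw [hv, Nat.cast_ne_zero]
  intro h0
  have h3 := Finset.sum_eq_zero_iff.mp h0 δ (Finset.mem_univ _)
  rcases mul_eq_zero.mp h3 with e | e
  · exact h1 ((ha δ).trans (by rw [e, Nat.cast_zero]))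
  · exact h2 ((hb δ).trans (by rw [e, Nat.cast_zero]))

variable {G : Type*} [Group G] [Fintype G] (L : Subgroup G) [L.Normal] [Fintype L]
  (φ : Cfsg.IrrCharacter L)

/-- The inertia group. -/
def inertia : Subgroup G where
  carrier := {g | H56.twist L φ.1 g = φ.1}
  one_mem' := by funext l; simp [H56.twist]
  mul_mem' {a b} ha hb := by
    funext l
    have h1 := congrFun ha ⟨b * l * b⁻¹, (inferInstance : L.Normal).conj_mem _ l.2 b⟩
    have h2 := congrFun hb l
    simp only [H56.twist] at h1 h2 ⊢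
    rw [← h2, ← h1]
    exact congrArg φ.1 (Subtype.ext (by simp [mul_assoc]))
  inv_mem' {a} ha := by
    funext l
    have h1 := congrFun ha ⟨a⁻¹ * l * a⁻¹⁻¹, (inferInstance : L.Normal).conj_mem _ l.2 a⁻¹⟩
    simp only [H56.twist] at h1 ⊢
    rw [← h1]
    exact congrArg φ.1 (Subtype.ext (by simp [mul_assoc]))

theorem mem_inertia (g : G) : g ∈ inertia L φ ↔ H56.twist L φ.1 g = φ.1 := Iff.rfl

theorem le_inertia : L ≤ inertia L φ := by
  letI : Fintype (inertia L φ) := Fintype.ofFinite _
  exact H56.le_inertia L _ φ.2 (mem_inertia L φ)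

/-- The inclusion into the inertia group. -/
def inclT : L →* inertia L φ := Subgroup.inclusion (le_inertia L φ)

variable {L φ} [Fintype (inertia L φ)]

theorem resT_inner (χ' : inertia L φ → ℂ) [Fintype (L.subgroupOf (inertia L φ))] :
    Cfsg.classInner (fun n : L.subgroupOf (inertia L φ) => χ' n) (H56.resT L (inertia L φ) φ.1) =
      Cfsg.classInner (fun l => χ' (inclT L φ l)) φ.1 := by
  rw [← H43.classInner_congr (Subgroup.subgroupOfEquivOfLe (le_inertia L φ))
    (fun l => χ' (inclT L φ l)) φ.1]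
  rfl

/-- Induction from the inertia group above the character. -/
theorem induced_irr (χ' : Cfsg.IrrCharacter (inertia L φ))
    (hc : Cfsg.classInner (fun l => χ'.1 (inclT L φ l)) φ.1 ≠ 0) :
    ∃ χ : Cfsg.IrrCharacter G, χ.1 = Cfsg.indFun (inertia L φ) χ'.1 ∧
      Cfsg.classInner (fun l : L => χ.1 l) φ.1 ≠ 0 := by
  haveI : Fintype (L.subgroupOf (inertia L φ)) := Fintype.ofFinite _
  have h := (H56.clifford_induced L (inertia L φ) φ.2 (mem_inertia L φ) χ'.2
    (by rw [resT_inner]; exact hc)).1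
  refine ⟨⟨_, h⟩, rfl, constituent_trans (H26.isCharacter_of_irr h) (inertia L φ).subtype (inclT L φ) χ' φ ?_ hc⟩
  have h1 := H25.classInner_indFun_right (inertia L φ) χ'.1 _ (H26.irr_isClassFunction ⟨_, h⟩)
  rw [H57.irr_inner_self h] at h1
  intro h0
  exact one_ne_zero (h1.trans h0)

theorem induced_injective {χ₁ χ₂ : Cfsg.IrrCharacter (inertia L φ)}
    (h₁ : Cfsg.classInner (fun l => χ₁.1 (inclT L φ l)) φ.1 ≠ 0)
    (h₂ : Cfsg.classInner (fun l => χ₂.1 (inclT L φ l)) φ.1 ≠ 0)
    (h : Cfsg.indFun (inertia L φ) χ₁.1 = Cfsg.indFun (inertia L φ) χ₂.1) : χ₁ = χ₂ := by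
  haveI : Fintype (L.subgroupOf (inertia L φ)) := Fintype.ofFinite _
  exact Subtype.ext ((H56.clifford_induced L (inertia L φ) φ.2 (mem_inertia L φ) χ₁.2
    (by rw [resT_inner]; exact h₁)).2 _ χ₂.2 (by rw [resT_inner]; exact h₂) h)

/-- Every character above is induced. -/
theorem exists_correspondent (χ : Cfsg.IrrCharacter G)
    (hc : Cfsg.classInner (fun l : L => χ.1 l) φ.1 ≠ 0) :
    ∃ χ' : Cfsg.IrrCharacter (inertia L φ), Cfsg.classInner (fun l => χ'.1 (inclT L φ l)) φ.1 ≠ 0 ∧
      Cfsg.indFun (inertia L φ) χ'.1 = χ.1 := by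
  classical
  obtain ⟨a, ha, he⟩ := H26.exists_nat_coeffs
    (H26.isCharacter_comp (H26.irr_isCharacter χ) (inertia L φ).subtype)
  obtain ⟨χ', h1, h2⟩ : ∃ χ' : Cfsg.IrrCharacter (inertia L φ), a χ' ≠ 0 ∧
      Cfsg.classInner (fun l => χ'.1 (inclT L φ l)) φ.1 ≠ 0 := by
    by_contra hno
    push Not at hno
    refine hc ?_
    have h : (fun l : L => χ.1 l) = ∑ η, (a η : ℂ) • fun l => η.1 (inclT L φ l) := by
      funext l
      have := congrFun he (inclT L φ l)
      simp only [Finset.sum_apply, Pi.smul_apply] at this ⊢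
      exact this
    rw [h, H26.classInner_sum_left]
    refine Finset.sum_eq_zero fun η _ => ?_
    rw [H26.classInner_smul_left]
    by_cases e : a η = 0
    · rw [e, Nat.cast_zero, zero_mul]
    · rw [hno η e, mul_zero]
  refine ⟨χ', h2, ?_⟩
  obtain ⟨χ₁, e₁, -⟩ := induced_irr χ' h2
  rw [← e₁]
  by_contra hne
  have h := H25.classInner_indFun_right (inertia L φ) χ'.1 χ.1 (H26.irr_isClassFunction χ)
  rw [← e₁, H26.classInner_irr χ χ₁, if_neg (fun e => hne (by rw [e]))] at h
  exact h1 (by exact_mod_cast (h.trans (ha χ')).symm)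

/-- Multiplicities over the character are computed in the inertia group. -/
theorem inner_eq_of_correspondent {D : Type*} [Group D] [Fintype D] (j : D →* inertia L φ)
    (i : L →* D) (hji : ∀ l, j (i l) = inclT L φ l) (χ : Cfsg.IrrCharacter G)
    (χ' : Cfsg.IrrCharacter (inertia L φ))
    (hc : Cfsg.classInner (fun l => χ'.1 (inclT L φ l)) φ.1 ≠ 0)
    (he : Cfsg.indFun (inertia L φ) χ'.1 = χ.1) (δ : Cfsg.IrrCharacter D)
    (hδ : Cfsg.classInner (fun l => δ.1 (i l)) φ.1 ≠ 0) :
    Cfsg.classInner (fun x => χ.1 (j x : G)) δ.1 = Cfsg.classInner (fun x => χ'.1 (j x)) δ.1 := by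
  classical
  obtain ⟨a, ha, hexp⟩ := H26.exists_nat_coeffs
    (H26.isCharacter_comp (H26.irr_isCharacter χ) (inertia L φ).subtype)
  have hfrob : ∀ η : Cfsg.IrrCharacter (inertia L φ),
      Cfsg.classInner χ.1 (Cfsg.indFun (inertia L φ) η.1) = (a η : ℂ) := fun η =>
    (H25.classInner_indFun_right (inertia L φ) η.1 χ.1 (H26.irr_isClassFunction χ)).trans (ha η)
  have h : (fun x => χ.1 (j x : G)) = ∑ η, (a η : ℂ) • fun x => η.1 (j x) := by
    funext x
    have := congrFun hexp (j x)
    simp only [Finset.sum_apply, Pi.smul_apply] at this ⊢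
    exact this
  have ha1 : (a χ' : ℂ) = 1 := by rw [← hfrob, he, H26.classInner_irr, if_pos rfl]
  rw [h, H26.classInner_sum_left, Finset.sum_eq_single χ', H26.classInner_smul_left, ha1, one_mul]
  · intro η _ hne
    rw [H26.classInner_smul_left]
    by_cases hη : Cfsg.classInner (fun l => η.1 (inclT L φ l)) φ.1 = 0
    · refine mul_eq_zero_of_right _ ?_
      by_contra h0
      refine constituent_trans (H26.irr_isCharacter η) j i δ φ h0 hδ ?_
      simp only [hji]
      exact hη
    · refine mul_eq_zero_of_left ?_ _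
      obtain ⟨χ₁, e₁, -⟩ := induced_irr η hη
      rw [← hfrob, ← e₁, H26.classInner_irr, if_neg]
      intro e
      exact hne (induced_injective hη hc (by rw [he, ← e₁, e]))
  · exact fun h => absurd (Finset.mem_univ _) h

end Cfsg.Agent.H44.Parity
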