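import Cfsg.Agent.H44.Parity.Reduction

/-!
# The odd-multiplicity correspondence
-/

set_option autoImplicit false

namespace Cfsg.Agent.H44.Parity

variable {G : Type*} [Group G] [Fintype G] {S : Type*} [Group S] [Finite S] {L : Subgroup G}
  [L.Normal] [Fintype L] (st : Setup G S L) [Fintype st.H]

/-- Invariant constituents of one character are conjugate under the complement. -/
theorem exists_conj_H (χ : Cfsg.IrrCharacter G) (φ φ' : Cfsg.IrrCharacter L)
    (hφ : ∀ s (l l' : L), (l' : G) = st.act s l → φ.1 l' = φ.1 l)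
    (hφ' : ∀ s (l l' : L), (l' : G) = st.act s l → φ'.1 l' = φ'.1 l)
    (h : Cfsg.classInner (fun l : L => χ.1 l) φ.1 ≠ 0)
    (h' : Cfsg.classInner (fun l : L => χ.1 l) φ'.1 ≠ 0) :
    ∃ g ∈ st.H, ∀ l, φ'.1 l = φ.1 (MulAut.conjNormal g l) := by
  classical
  letI : Fintype (inertia L φ) := Fintype.ofFinite _
  have hconv : ∀ θ : Cfsg.IrrCharacter L, Cfsg.classInner (fun l : L => χ.1 l) θ.1 ≠ 0 →
      H43.restrMult L χ θ ≠ 0 := fun θ hθ h0 =>
    hθ ((H43.classInner_eq_mult (H43.isCharacter_restr L χ) θ).trans (by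
      rw [show H43.mult _ θ = 0 from h0, Nat.cast_zero]))
  obtain ⟨x, hx⟩ := H43.exists_irrConj_of_restrMult_ne_zero L χ (hconv φ h) (hconv φ' h')
  obtain ⟨k, hk, g, hg, rfl⟩ := st.sup x
  have hval : ∀ l, φ'.1 l = φ.1 (MulAut.conjNormal k (MulAut.conjNormal g l)) := fun l => by
    rw [← hx, H43.irrConj_apply, map_mul, MulAut.mul_apply]
  -- the conjugate by the part in `K` is invariant as well
  have hk' : ∀ s (m m' : L), (m' : G) = st.act s m →
      φ.1 (MulAut.conjNormal k m') = φ.1 (MulAut.conjNormal k m) := by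
    intro s m m' hm
    obtain ⟨a, ha, hact⟩ := st.act_h_mul hg s
    let n : L := MulAut.conjNormal g⁻¹ m
    let n' : L := ⟨st.act s n, st.act_L s _ n.2⟩
    have h1 := hφ' s n n' rfl
    rw [hval, hval] at h1
    have hgn : ∀ z : L, MulAut.conjNormal g (MulAut.conjNormal g⁻¹ z) = z := fun z => by
      rw [← MulAut.mul_apply, ← map_mul, mul_inv_cancel, map_one, MulAut.one_apply]
    rw [show MulAut.conjNormal g n = m from hgn m] at h1
    rw [← h1]
    have hn' : MulAut.conjNormal k (MulAut.conjNormal g n') =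
        (⟨k * a⁻¹ * k⁻¹, (inferInstance : L.Normal).conj_mem _ (inv_mem ha) k⟩ : L) *
          MulAut.conjNormal k m' *
          (⟨k * a⁻¹ * k⁻¹, (inferInstance : L.Normal).conj_mem _ (inv_mem ha) k⟩ : L)⁻¹ := by
      refine Subtype.ext ?_
      have hnv : ((n : L) : G) = g⁻¹ * (m : G) * g⁻¹⁻¹ := MulAut.conjNormal_apply _ _
      simp only [MulAut.conjNormal_apply, Subgroup.coe_mul, Subgroup.coe_inv, n', hnv, map_mul,
        hm, inv_inv]
      rw [map_inv, hact]
      group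
    rw [hn']
    exact (H26.irr_conj φ _ _).symm
  have hkT : k ∈ inertia L φ := by
    refine st.mem_of_moved (inertia L φ) (le_inertia L φ) hk fun s => ?_
    funext l
    let p : L := MulAut.conjNormal k⁻¹ l
    let m : L := ⟨st.act s⁻¹ p, st.act_L _ _ p.2⟩
    have hm : (p : G) = st.act s m := by
      show (p : G) = st.act s (st.act s⁻¹ (p : G))
      rw [← MulAut.mul_apply, ← map_mul, mul_inv_cancel, map_one, MulAut.one_apply]
    have h1 := hk' s m p hm
    have h2 : MulAut.conjNormal k p = l := by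
      rw [← MulAut.mul_apply, ← map_mul, mul_inv_cancel, map_one, MulAut.one_apply]
    rw [h2] at h1
    show φ.1 ⟨st.act s k * k⁻¹ * (l : G) * (st.act s k * k⁻¹)⁻¹, _⟩ = φ.1 l
    rw [h1]
    refine hφ s _ _ ?_
    show _ = st.act s ((MulAut.conjNormal k m : L) : G)
    rw [MulAut.conjNormal_apply, map_mul, map_mul, map_inv, ← hm]
    simp only [p, MulAut.conjNormal_apply]
    group
  refine ⟨g, hg, fun l => ?_⟩
  rw [hval]
  have h1 := congrFun ((mem_inertia L φ k).mp hkT) (MulAut.conjNormal g l)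
  simp only [H56.twist] at h1
  rw [← h1]
  exact congrArg φ.1 (Subtype.ext (MulAut.conjNormal_apply _ _))

omit [Finite S] in
theorem inner_ne_zero_of_oddIn {χ : Cfsg.IrrCharacter G} {ψ : Cfsg.IrrCharacter st.H}
    (h : OddIn st χ.1 ψ) : Cfsg.classInner (fun x : st.H => χ.1 (st.H.subtype x)) ψ.1 ≠ 0 := by
  intro h0
  rw [OddIn, H43.mult_eq_of_classInner (m := 0) (by rw [Nat.cast_zero]; exact h0)] at h
  exact absurd h (by decide)

/-- The correspondence. -/
theorem main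
    (hG : ∀ χ : Cfsg.IrrCharacter G, InvS st χ.1 → ∃ φ : Cfsg.IrrCharacter L,
      (∀ s (l l' : L), (l' : G) = st.act s l → φ.1 l' = φ.1 l) ∧
        Cfsg.classInner (fun l : L => χ.1 l) φ.1 ≠ 0)
    (hH : ∀ ψ : Cfsg.IrrCharacter st.H, InvSH st ψ.1 → ∃ φ : Cfsg.IrrCharacter L,
      (∀ s (l l' : L), (l' : G) = st.act s l → φ.1 l' = φ.1 l) ∧
        Cfsg.classInner (fun l : L => ψ.1 ⟨l, st.L_le_H l.2⟩) φ.1 ≠ 0) :
    (∀ χ : Cfsg.IrrCharacter G, InvS st χ.1 → ∃! ψ, InvSH st ψ.1 ∧ OddIn st χ.1 ψ) ∧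
    (∀ χ χ' : Cfsg.IrrCharacter G, InvS st χ.1 → InvS st χ'.1 → ∀ ψ, InvSH st ψ.1 →
      OddIn st χ.1 ψ → OddIn st χ'.1 ψ → χ = χ') ∧
    (∀ ψ, InvSH st ψ.1 → ∃ χ : Cfsg.IrrCharacter G, InvS st χ.1 ∧ OddIn st χ.1 ψ) := by
  classical
  haveI : (L.subgroupOf st.H).Normal := (inferInstance : L.Normal).subgroupOf _
  letI : Fintype (L.subgroupOf st.H) := Fintype.ofFinite _
  let i : L →* st.H := Subgroup.inclusion st.L_le_H
  have hone : ∀ (φ : Cfsg.IrrCharacter L)
      (hφ : ∀ s (l l' : L), (l' : G) = st.act s l → φ.1 l' = φ.1 l), _ := fun φ hφ =>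
    letI : Fintype (inertia L φ) := Fintype.ofFinite _
    letI : Fintype (inertia (L.subgroupOf st.H) (phiH st φ)) := Fintype.ofFinite _
    letI : Fintype (inSetup st φ hφ).H := Fintype.ofFinite _
    over_one st φ hφ
  refine ⟨fun χ hinv => ?_, fun χ χ' hi hi' ψ hψ ho ho' => ?_, fun ψ hψ => ?_⟩
  · obtain ⟨φ, hφ, hc⟩ := hG χ hinv
    obtain ⟨ψ, ⟨hov, hodd⟩, huniq⟩ := (hone φ hφ).1 χ hinv hc
    refine ⟨ψ, ⟨fun s h h' hh => ?_, hodd⟩, fun ψ₂ hψ₂ => ?_⟩
    · have hHs : ∀ (s : S), ∀ x ∈ st.H, st.act s x ∈ st.H := fun s x hx => act_mem_H s hx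
      let eS : st.H ≃* st.H := st.actSub hHs s
      have hov' : Cfsg.classInner (fun l : L => (H43.irrCongr eS ψ).1 ⟨l, st.L_le_H l.2⟩) φ.1 ≠ 0 := by
        rw [← H43.classInner_congr (st.actSub st.act_L s : L ≃* L)] at hov
        refine fun h0 => hov (Eq.trans ?_ h0)
        exact congrArg₂ Cfsg.classInner rfl (funext fun l => hφ s l _ rfl)
      have hodd' : OddIn st χ.1 (H43.irrCongr eS ψ) := by
        have hm : Cfsg.classInner (fun x : st.H => χ.1 x) ψ.1 =
            (H43.mult (fun x : st.H => χ.1 x) ψ : ℂ) :=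
          H43.classInner_eq_mult (H26.isCharacter_comp (H26.irr_isCharacter χ) st.H.subtype) ψ
        rw [OddIn, H43.mult_eq_of_classInner (m := H43.mult (fun x : st.H => χ.1 x) ψ)]
        · exact hodd
        rw [← hm, ← H43.classInner_congr eS (fun x : st.H => χ.1 x) ψ.1]
        exact congrArg₂ Cfsg.classInner (funext fun x => (hinv s x).symm) rfl
      rw [show h' = eS h from Subtype.ext hh]
      exact congrFun (congrArg Subtype.val (huniq _ ⟨hov', hodd'⟩)) h
    · refine huniq ψ₂ ⟨?_, hψ₂.2⟩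
      obtain ⟨φ', hφ', hc'⟩ := hH ψ₂ hψ₂.1
      have hχ' := constituent_trans (H26.irr_isCharacter χ) st.H.subtype i ψ₂ φ'
        (inner_ne_zero_of_oddIn st hψ₂.2) hc'
      obtain ⟨g, hg, heq⟩ := exists_conj_H st χ φ φ' hφ hφ' hc hχ'
      intro h0
      refine hc' ?_
      rw [← h0, ← H43.classInner_congr (MulAut.conjNormal g : MulAut L)
        (fun l : L => ψ₂.1 ⟨l, st.L_le_H l.2⟩) φ.1]
      refine congrArg₂ Cfsg.classInner (funext fun l => ?_) (funext heq)
      rw [show (⟨((MulAut.conjNormal g l : L) : G), st.L_le_H (MulAut.conjNormal g l).2⟩ : st.H) =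
        ⟨g, hg⟩ * ⟨l, st.L_le_H l.2⟩ * ⟨g, hg⟩⁻¹ from Subtype.ext (MulAut.conjNormal_apply _ _),
        H26.irr_conj]
  · obtain ⟨φ, hφ, hc⟩ := hH ψ hψ
    exact (hone φ hφ).2.1 χ χ' hi hi'
      (constituent_trans (H26.irr_isCharacter χ) st.H.subtype i ψ φ (inner_ne_zero_of_oddIn st ho) hc)
      (constituent_trans (H26.irr_isCharacter χ') st.H.subtype i ψ φ (inner_ne_zero_of_oddIn st ho') hc)
      ψ hc ho ho'
  · obtain ⟨φ, hφ, hc⟩ := hH ψ hψ
    exact (hone φ hφ).2.2 ψ hψ hc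

end Cfsg.Agent.H44.Parity
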