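import Cfsg.Agent.H44.Parity.Correspondence
import Cfsg.Agent.H44.Parity.Inertia

/-!
# Reduction of the odd-multiplicity correspondence to one invariant character
-/

set_option autoImplicit false

namespace Cfsg.Agent.H44.Parity

section Aut

variable {G : Type*} [Group G] [Fintype G]

theorem indFun_comp_aut (T : Subgroup G) [Fintype T] (α : MulAut G) (αT : MulAut T)
    (h : ∀ t : T, (αT t : G) = α t) (f : T → ℂ) (g : G) :
    Cfsg.indFun T f (α g) = Cfsg.indFun T (fun t => f (αT t)) g := by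
  rw [H25.indFun_apply, H25.indFun_apply]
  congr 1
  symm
  refine Fintype.sum_equiv α.toEquiv _ _ fun x => ?_
  show Cfsg.extendByZero T (fun t => f (αT t)) (x⁻¹ * g * x) =
    Cfsg.extendByZero T f ((α x)⁻¹ * α g * α x)
  rw [← map_inv, ← map_mul, ← map_mul]
  by_cases hm : x⁻¹ * g * x ∈ T
  · rw [H25.extendByZero_of_mem T _ hm, H25.extendByZero_of_mem T _ (h ⟨_, hm⟩ ▸ (αT ⟨_, hm⟩).2)]
    exact congrArg f (Subtype.ext (h ⟨_, hm⟩))
  · rw [Cfsg.extendByZero, Cfsg.extendByZero, Function.extend_apply', Function.extend_apply']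
    · rfl
    · rintro ⟨t, ht⟩
      refine hm ?_
      obtain ⟨t', rfl⟩ := αT.surjective t
      rw [h] at ht
      rw [← α.injective ht]
      exact t'.2
    · rintro ⟨t, ht⟩
      exact hm (ht ▸ t.2)

variable {L : Subgroup G} [L.Normal] [Fintype L] {φ : Cfsg.IrrCharacter L} [Fintype (inertia L φ)]

theorem correspondent_invariant (α : MulAut G) (αT : MulAut (inertia L φ))
    (hαT : ∀ t : inertia L φ, (αT t : G) = α t) (αL : MulAut L) (hαL : ∀ l : L, (αL l : G) = α l)
    (hφ : ∀ l, φ.1 (αL l) = φ.1 l) {χ : Cfsg.IrrCharacter G}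
    {χ' : Cfsg.IrrCharacter (inertia L φ)}
    (hc : Cfsg.classInner (fun l => χ'.1 (inclT L φ l)) φ.1 ≠ 0)
    (he : Cfsg.indFun (inertia L φ) χ'.1 = χ.1) (hχ : ∀ g, χ.1 (α g) = χ.1 g)
    (t : inertia L φ) : χ'.1 (αT t) = χ'.1 t := by
  have h : H43.irrCongr αT χ' = χ' := by
    refine induced_injective ?_ hc ?_
    · rw [← H43.classInner_congr αL (fun l => χ'.1 (inclT L φ l)) φ.1] at hc
      intro h0
      refine hc ?_
      refine Eq.trans ?_ h0
      refine congrArg₂ Cfsg.classInner (funext fun l => congrArg χ'.1 (Subtype.ext ?_)) (funext hφ)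
      show ((αL l : L) : G) = (αT (inclT L φ l) : G)
      rw [hαT, hαL]; rfl
    · rw [he]
      funext g
      rw [← hχ g, ← he, indFun_comp_aut _ α αT hαT]
      rfl
  exact congrFun (congrArg Subtype.val h) t

end Aut

variable {G : Type*} [Group G] [Fintype G] {S : Type*} [Group S] [Finite S] {L : Subgroup G}
  [L.Normal] [Fintype L]

namespace Setup

variable (st : Setup G S L)

theorem act_mem_iff' {M : Subgroup G} (hM : ∀ s, ∀ x ∈ M, st.act s x ∈ M) (s : S) (x : G) :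
    st.act s x ∈ M ↔ x ∈ M := act_mem_iff hM s x

/-- The restriction of an element of the acting group to an invariant subgroup. -/
def actSub {M : Subgroup G} (hM : ∀ s, ∀ x ∈ M, st.act s x ∈ M) : S →* MulAut M where
  toFun s :=
    { toFun := fun x => ⟨st.act s x, hM s x x.2⟩
      invFun := fun x => ⟨st.act s⁻¹ x, hM s⁻¹ x x.2⟩
      left_inv := fun x => Subtype.ext (by
        show st.act s⁻¹ (st.act s (x : G)) = (x : G)
        rw [← MulAut.mul_apply, ← map_mul, inv_mul_cancel, map_one, MulAut.one_apply])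
      right_inv := fun x => Subtype.ext (by
        show st.act s (st.act s⁻¹ (x : G)) = (x : G)
        rw [← MulAut.mul_apply, ← map_mul, mul_inv_cancel, map_one, MulAut.one_apply])
      map_mul' := fun x y => Subtype.ext (map_mul (st.act s) _ _) }
  map_one' := MulEquiv.ext fun x => Subtype.ext (by
    show st.act 1 (x : G) = x
    rw [map_one, MulAut.one_apply])
  map_mul' s t := MulEquiv.ext fun x => Subtype.ext (by
    show st.act (s * t) (x : G) = st.act s (st.act t x)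
    rw [map_mul, MulAut.mul_apply])

/-- The action induced on the section. -/
def actE (s : S) : st.E →* st.E :=
  QuotientGroup.lift (L.subgroupOf st.K)
    (st.q.comp (st.actSub st.act_K s).toMonoidHom) fun k hk =>
      st.q_eq_one.mpr (st.act_L s _ hk)

theorem actE_q (s : S) (k : st.K) : st.actE s (st.q k) = st.q (st.actSub st.act_K s k) := rfl

theorem act_h_mul {h : G} (hh : h ∈ st.H) (s : S) : ∃ l ∈ L, st.act s h = l * h := by
  obtain ⟨l, hl, c, hc, rfl⟩ := st.fix_H h hh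
  exact ⟨st.act s l * l⁻¹, mul_mem (st.act_L s l hl) (inv_mem hl), by rw [map_mul, hc]; group⟩

/-- An element of `K` moved within an invariant subgroup over `L` lies in it. -/
theorem mem_of_moved (T : Subgroup G) (hLT : L ≤ T) {k : G} (hk : k ∈ st.K)
    (h : ∀ s, st.act s k * k⁻¹ ∈ T) : k ∈ T := by
  classical
  haveI : Fintype S := Fintype.ofFinite S
  set Tb : Subgroup st.E := (T.subgroupOf st.K).map st.q with hTb
  set a := st.q ⟨k, hk⟩ with ha
  have hstep : ∀ s, st.actE s a * a⁻¹ ∈ Tb := fun s =>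
    ⟨st.actSub st.act_K s ⟨k, hk⟩ * ⟨k, hk⟩⁻¹, h s, by rw [map_mul, map_inv]; rfl⟩
  have hP : ∏ s : S, st.actE s a = 1 := by
    obtain ⟨m, hm⟩ := st.q_surj (∏ s : S, st.actE s a)
    rw [← hm]
    refine st.q_eq_one.mpr (st.fpf _ m.2 fun t => ?_)
    refine (st.q_eq_one (k := m⁻¹ * st.actSub st.act_K t m)).mp ?_
    rw [map_mul, map_inv, ← actE_q, inv_mul_eq_one, hm, map_prod]
    symm
    refine Fintype.prod_equiv (Equiv.mulLeft t) _ _ fun s => ?_
    rw [ha, actE_q, actE_q, actE_q, Equiv.coe_mulLeft, map_mul (st.actSub st.act_K)]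
    rfl
  have h1 : a ^ Nat.card S ∈ Tb := by
    have h2 : ∏ s : S, st.actE s a * a⁻¹ ∈ Tb := prod_mem fun s _ => hstep s
    rw [Finset.prod_mul_distrib, hP, one_mul, Finset.prod_const, Finset.card_univ,
      ← Nat.card_eq_fintype_card, inv_pow] at h2
    exact (Subgroup.inv_mem_iff _).mp h2
  have h3 : a ∈ Tb := by
    obtain ⟨i, hi⟩ := exists_pow_eq_self_of_coprime
      (show (Nat.card S).Coprime (orderOf a) from
        (Nat.Coprime.coprime_dvd_left (orderOf_dvd_natCard a) st.coprime_E).symm)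
    rw [← hi]; exact pow_mem h1 i
  obtain ⟨m, hm, hma⟩ := h3
  have hml : (m : G)⁻¹ * k ∈ L := (st.q_eq_one (k := m⁻¹ * ⟨k, hk⟩)).mp (by
    rw [map_mul, map_inv, hma, ← ha, inv_mul_cancel])
  simpa using mul_mem (show (m : G) ∈ T from hm) (hLT hml)

theorem left_mem (T : Subgroup G) (hLT : L ≤ T) (hT : ∀ s, ∀ x ∈ T, st.act s x ∈ T) {k h : G}
    (hk : k ∈ st.K) (hh : h ∈ st.H) (hg : k * h ∈ T) : k ∈ T := by
  refine st.mem_of_moved T hLT hk fun s => ?_
  obtain ⟨l, hl, he⟩ := st.act_h_mul hh s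
  have h1 : st.act s (k * h) * (k * h)⁻¹ ∈ T := mul_mem (hT s _ hg) (inv_mem hg)
  rw [map_mul, he] at h1
  have h2 : k * l⁻¹ * k⁻¹ ∈ T := hLT ((inferInstance : L.Normal).conj_mem _ (inv_mem hl) k)
  have := mul_mem h1 h2
  rwa [show st.act s k * (l * h) * (k * h)⁻¹ * (k * l⁻¹ * k⁻¹) = st.act s k * k⁻¹ by group] at this

/-- The setup inside an invariant subgroup over `L`. -/
def restrict (T : Subgroup G) (hLT : L ≤ T) (hT : ∀ s, ∀ x ∈ T, st.act s x ∈ T) :
    Setup T S (L.subgroupOf T) where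
  K := st.K.subgroupOf T
  H := st.H.subgroupOf T
  act := st.actSub hT
  odd := st.odd.of_dvd_nat (Subgroup.card_subgroup_dvd_card T)
  coprime := Nat.Coprime.coprime_dvd_left (Subgroup.card_subgroup_dvd_card T) st.coprime
  K_normal := st.K_normal.subgroupOf T
  L_le_K l hl := st.L_le_K hl
  L_le_H l hl := st.L_le_H hl
  sup g := by
    obtain ⟨k, hk, h, hh, e⟩ := st.sup (g : G)
    have hkT := st.left_mem T hLT hT hk hh (e ▸ g.2)
    refine ⟨⟨k, hkT⟩, hk, ⟨h, ?_⟩, hh, Subtype.ext e⟩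
    have := mul_mem (inv_mem hkT) g.2
    rwa [e, inv_mul_cancel_left] at this
  inf x hx hx' := st.inf _ hx hx'
  comm a ha b hb := st.comm _ ha _ hb
  act_L s l hl := st.act_L s _ hl
  act_K s k hk := st.act_K s _ hk
  fix_H h hh := by
    obtain ⟨l, hl, c, hc, e⟩ := st.fix_H _ hh
    have hcT : c ∈ T := by
      have := mul_mem (inv_mem (hLT hl)) h.2
      rwa [show (h : G) = l * c from e, inv_mul_cancel_left] at this
    exact ⟨⟨l, hLT hl⟩, hl, ⟨c, hcT⟩, fun s => Subtype.ext (hc s), Subtype.ext e⟩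
  fpf k hk h := st.fpf _ hk h

end Setup

section Main

variable (st : Setup G S L) [Fintype st.H] (φ : Cfsg.IrrCharacter L)
  (hφ : ∀ s (l l' : L), (l' : G) = st.act s l → φ.1 l' = φ.1 l)

/-- The character seen in the complement. -/
noncomputable def phiH : Cfsg.IrrCharacter (L.subgroupOf st.H) :=
  H43.irrCongr (Subgroup.subgroupOfEquivOfLe st.L_le_H) φ

include hφ in
theorem act_mem_inertia (s : S) {x : G} (hx : x ∈ inertia L φ) : st.act s x ∈ inertia L φ := by
  funext l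
  let m : L := ⟨st.act s⁻¹ l, st.act_L _ _ l.2⟩
  have hm : st.act s (m : G) = l := by
    show st.act s (st.act s⁻¹ (l : G)) = l
    rw [← MulAut.mul_apply, ← map_mul, mul_inv_cancel, map_one, MulAut.one_apply]
  have h1 := congrFun ((mem_inertia L φ x).mp hx) m
  simp only [H56.twist] at h1 ⊢
  rw [hφ s m l hm.symm, ← h1]
  refine hφ s _ _ ?_
  show st.act s x * (l : G) * (st.act s x)⁻¹ = st.act s (x * (m : G) * x⁻¹)
  rw [map_mul, map_mul, map_inv, hm]

omit [Finite S] in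
theorem mem_inertiaH (t : st.H) [Fintype (L.subgroupOf st.H)] :
    t ∈ inertia (L.subgroupOf st.H) (phiH st φ) ↔ (t : G) ∈ inertia L φ := by
  rw [mem_inertia, mem_inertia]
  constructor
  · intro h
    funext l
    exact congrFun h ⟨⟨l, st.L_le_H l.2⟩, l.2⟩
  · intro h
    funext l
    exact congrFun h ⟨l, l.2⟩

/-- The two descriptions of the inertia group in the complement. -/
def inertiaEquiv [Fintype (L.subgroupOf st.H)] :
    inertia (L.subgroupOf st.H) (phiH st φ) ≃* st.H.subgroupOf (inertia L φ) where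
  toFun t := ⟨⟨(t : st.H), (mem_inertiaH st φ t.1).mp t.2⟩, (t : st.H).2⟩
  invFun t := ⟨⟨(t : inertia L φ), t.2⟩, (mem_inertiaH st φ _).mpr (t : inertia L φ).2⟩
  left_inv _ := rfl
  right_inv _ := rfl
  map_mul' _ _ := rfl

/-- The setup inside the inertia group. -/
def inSetup (hφ : ∀ s (l l' : L), (l' : G) = st.act s l → φ.1 l' = φ.1 l) :
    Setup (inertia L φ) S (L.subgroupOf (inertia L φ)) :=
  st.restrict (inertia L φ) (le_inertia L φ) fun s _ hx => act_mem_inertia st φ hφ s hx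

variable [Fintype (L.subgroupOf st.H)]

/-- The two descriptions of the inertia group in the complement, for the setup. -/
def inertiaEquiv' (hφ : ∀ s (l l' : L), (l' : G) = st.act s l → φ.1 l' = φ.1 l) :
    inertia (L.subgroupOf st.H) (phiH st φ) ≃* (inSetup st φ hφ).H :=
  inertiaEquiv st φ

theorem inertiaEquiv'_val (t : inertia (L.subgroupOf st.H) (phiH st φ)) :
    (((inertiaEquiv' st φ hφ t : (inSetup st φ hφ).H) : inertia L φ) : G) = ((t : st.H) : G) := rfl

theorem inertiaEquiv'_symm_val (t : (inSetup st φ hφ).H) :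
    ((((inertiaEquiv' st φ hφ).symm t : inertia (L.subgroupOf st.H) (phiH st φ)) : st.H) : G) =
      ((t : inertia L φ) : G) := rfl

theorem inSetup_act_val (s : S) (t : inertia L φ) :
    (((inSetup st φ hφ).act s t : inertia L φ) : G) = st.act s (t : G) := rfl

theorem overψ_iff (f : st.H → ℂ) :
    Cfsg.classInner (fun l : L => f ⟨l, st.L_le_H l.2⟩) φ.1 ≠ 0 ↔
      Cfsg.classInner (fun l : L.subgroupOf st.H => f l) (phiH st φ).1 ≠ 0 := by
  rw [← H43.classInner_congr (Subgroup.subgroupOfEquivOfLe st.L_le_H)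
    (fun l : L => f ⟨l, st.L_le_H l.2⟩) φ.1]
  exact Iff.rfl

variable [Fintype (inertia L φ)] [Fintype (inertia (L.subgroupOf st.H) (phiH st φ))]
  [Fintype (inSetup st φ hφ).H]

/-- Multiplicities pass to the inertia group. -/
theorem transfer (χ : Cfsg.IrrCharacter G) (χ' : Cfsg.IrrCharacter (inertia L φ))
    (hc : Cfsg.classInner (fun l => χ'.1 (inclT L φ l)) φ.1 ≠ 0)
    (he : Cfsg.indFun (inertia L φ) χ'.1 = χ.1) (ψ' : Cfsg.IrrCharacter (inSetup st φ hφ).H)
    (ψ : Cfsg.IrrCharacter st.H)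
    (hψ' : Cfsg.classInner (fun l => ψ'.1 (inertiaEquiv' st φ hφ
      (inclT (L.subgroupOf st.H) (phiH st φ) l))) (phiH st φ).1 ≠ 0)
    (hi : Cfsg.indFun (inertia (L.subgroupOf st.H) (phiH st φ))
      (H43.irrCongr (inertiaEquiv' st φ hφ) ψ').1 = ψ.1) :
    OddIn st χ.1 ψ ↔ OddIn (inSetup st φ hφ) χ'.1 ψ' := by
  have hm : Cfsg.classInner (fun h : st.H => χ.1 h) ψ.1 =
      Cfsg.classInner (fun h : (inSetup st φ hφ).H => χ'.1 h) ψ'.1 := by
    rw [← hi, H25.classInner_indFun_right (inertia (L.subgroupOf st.H) (phiH st φ))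
      (H43.irrCongr (inertiaEquiv' st φ hφ) ψ').1 (fun h : st.H => χ.1 h)
      (fun a b => H26.irr_conj χ _ _),
      ← H43.classInner_congr (inertiaEquiv' st φ hφ)
        (fun h : (inSetup st φ hφ).H => χ'.1 h) ψ'.1]
    refine inner_eq_of_correspondent
      ((inSetup st φ hφ).H.subtype.comp (inertiaEquiv' st φ hφ).toMonoidHom)
      ((inclT (L.subgroupOf st.H) (phiH st φ)).comp
        (Subgroup.subgroupOfEquivOfLe st.L_le_H).symm.toMonoidHom)
      (fun l => rfl) χ χ' hc he (H43.irrCongr (inertiaEquiv' st φ hφ) ψ') ?_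
    rw [← H43.classInner_congr (Subgroup.subgroupOfEquivOfLe st.L_le_H).symm] at hψ'
    refine fun h0 => hψ' (Eq.trans ?_ h0)
    refine congrArg₂ Cfsg.classInner rfl (funext fun l => ?_)
    show φ.1 (Subgroup.subgroupOfEquivOfLe st.L_le_H
      ((Subgroup.subgroupOfEquivOfLe st.L_le_H).symm l)) = φ.1 l
    rw [MulEquiv.apply_symm_apply]
  obtain ⟨m, hm'⟩ := H26.exists_nat_classInner_irr
    (H26.isCharacter_comp (H26.irr_isCharacter χ) st.H.subtype) ψ
  have hm1 : Cfsg.classInner (fun h : st.H => χ.1 h) ψ.1 = (m : ℂ) := hm'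
  rw [OddIn, OddIn, H43.mult_eq_of_classInner hm1, H43.mult_eq_of_classInner (hm ▸ hm1)]

/-- Every character of the complement over the character is induced from the inertia group. -/
theorem exists_correspondentH (ψ : Cfsg.IrrCharacter st.H)
    (hψ : Cfsg.classInner (fun l : L => ψ.1 ⟨l, st.L_le_H l.2⟩) φ.1 ≠ 0) :
    ∃ ψ' : Cfsg.IrrCharacter (inSetup st φ hφ).H,
      Cfsg.classInner (fun l => ψ'.1 (inertiaEquiv' st φ hφ
        (inclT (L.subgroupOf st.H) (phiH st φ) l))) (phiH st φ).1 ≠ 0 ∧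
      Cfsg.indFun (inertia (L.subgroupOf st.H) (phiH st φ))
        (H43.irrCongr (inertiaEquiv' st φ hφ) ψ').1 = ψ.1 := by
  obtain ⟨ψ₂, hc, hi⟩ := exists_correspondent ψ ((overψ_iff st φ _).mp hψ)
  refine ⟨H43.irrCongr (inertiaEquiv' st φ hφ).symm ψ₂, ?_, ?_⟩
  · refine fun h0 => hc (Eq.trans ?_ h0)
    refine congrArg₂ Cfsg.classInner (funext fun l => ?_) rfl
    rw [H43.irrCongr_apply, MulEquiv.symm_apply_apply]
  · rw [show H43.irrCongr (inertiaEquiv' st φ hφ) (H43.irrCongr (inertiaEquiv' st φ hφ).symm ψ₂) = ψ₂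
      from Subtype.ext (funext fun t => by simp [H43.irrCongr_apply])]
    exact hi

/-- The correspondent of an invariant character of the complement is invariant. -/
theorem invSH_correspondent (ψ : Cfsg.IrrCharacter st.H) (hinv : InvSH st ψ.1)
    (ψ' : Cfsg.IrrCharacter (inSetup st φ hφ).H)
    (hψ' : Cfsg.classInner (fun l => ψ'.1 (inertiaEquiv' st φ hφ
      (inclT (L.subgroupOf st.H) (phiH st φ) l))) (phiH st φ).1 ≠ 0)
    (hi : Cfsg.indFun (inertia (L.subgroupOf st.H) (phiH st φ))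
      (H43.irrCongr (inertiaEquiv' st φ hφ) ψ').1 = ψ.1) :
    InvSH (inSetup st φ hφ) ψ'.1 := by
  intro s h h' hh
  have hHs : ∀ (s : S), ∀ x ∈ st.H, st.act s x ∈ st.H := fun s x hx => act_mem_H s hx
  have hTH : ∀ (s : S) (t : st.H), t ∈ inertia (L.subgroupOf st.H) (phiH st φ) →
      st.actSub hHs s t ∈ inertia (L.subgroupOf st.H) (phiH st φ) := fun s t ht =>
    (mem_inertiaH st φ _).mpr (act_mem_inertia st φ hφ s ((mem_inertiaH st φ t).mp ht))
  let αT : MulAut (inertia (L.subgroupOf st.H) (phiH st φ)) :=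
    { toFun := fun t => ⟨st.actSub hHs s t, hTH s _ t.2⟩
      invFun := fun t => ⟨st.actSub hHs s⁻¹ t, hTH s⁻¹ _ t.2⟩
      left_inv := fun t => Subtype.ext (by
        show st.actSub hHs s⁻¹ (st.actSub hHs s t.1) = t.1
        rw [← MulAut.mul_apply, ← map_mul, inv_mul_cancel, map_one, MulAut.one_apply])
      right_inv := fun t => Subtype.ext (by
        show st.actSub hHs s (st.actSub hHs s⁻¹ t.1) = t.1
        rw [← MulAut.mul_apply, ← map_mul, mul_inv_cancel, map_one, MulAut.one_apply])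
      map_mul' := fun a b => Subtype.ext (map_mul (st.actSub hHs s) _ _) }
  let eL := Subgroup.subgroupOfEquivOfLe st.L_le_H
  let αL : MulAut (L.subgroupOf st.H) := (eL.trans (st.actSub st.act_L s)).trans eL.symm
  have hαT : ∀ t, (αT t : st.H) = st.actSub hHs s (t : st.H) := fun _ => rfl
  have hαL : ∀ l : L.subgroupOf st.H, (αL l : st.H) = st.actSub hHs s (l : st.H) :=
    fun _ => Subtype.ext rfl
  have hφL : ∀ l, (phiH st φ).1 (αL l) = (phiH st φ).1 l := fun l =>
    hφ s (eL l) (eL (αL l)) rfl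
  have hψg : ∀ g, ψ.1 (st.actSub hHs s g) = ψ.1 g := fun g => hinv s g _ rfl
  have key := correspondent_invariant (st.actSub hHs s) αT hαT αL hαL hφL
    (χ' := H43.irrCongr (inertiaEquiv' st φ hφ) ψ') hψ' hi hψg
    ((inertiaEquiv' st φ hφ).symm h)
  have hh' : inertiaEquiv' st φ hφ (αT ((inertiaEquiv' st φ hφ).symm h)) = h' := by
    refine Subtype.ext (Subtype.ext ?_)
    rw [inertiaEquiv'_val, congrArg Subtype.val hh, inSetup_act_val, hαT]
    show st.act s _ = _
    rw [inertiaEquiv'_symm_val]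
  rw [H43.irrCongr_apply, H43.irrCongr_apply, hh', MulEquiv.apply_symm_apply] at key
  exact key

include hφ in
/-- The correspondence over one character, transported from the inertia group. -/
theorem over_one :
    (∀ χ : Cfsg.IrrCharacter G, InvS st χ.1 → Cfsg.classInner (fun l : L => χ.1 l) φ.1 ≠ 0 →
      ∃! ψ : Cfsg.IrrCharacter st.H,
        Cfsg.classInner (fun l : L => ψ.1 ⟨l, st.L_le_H l.2⟩) φ.1 ≠ 0 ∧ OddIn st χ.1 ψ) ∧
    (∀ χ χ' : Cfsg.IrrCharacter G, InvS st χ.1 → InvS st χ'.1 →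
      Cfsg.classInner (fun l : L => χ.1 l) φ.1 ≠ 0 → Cfsg.classInner (fun l : L => χ'.1 l) φ.1 ≠ 0 →
      ∀ ψ : Cfsg.IrrCharacter st.H, Cfsg.classInner (fun l : L => ψ.1 ⟨l, st.L_le_H l.2⟩) φ.1 ≠ 0 →
        OddIn st χ.1 ψ → OddIn st χ'.1 ψ → χ = χ') ∧
    (∀ ψ : Cfsg.IrrCharacter st.H, InvSH st ψ.1 →
      Cfsg.classInner (fun l : L => ψ.1 ⟨l, st.L_le_H l.2⟩) φ.1 ≠ 0 →
      ∃ χ : Cfsg.IrrCharacter G, InvS st χ.1 ∧ OddIn st χ.1 ψ) := by
  classical
  letI : Fintype (L.subgroupOf (inertia L φ)) := Fintype.ofFinite _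
  haveI : (L.subgroupOf (inertia L φ)).Normal := (inferInstance : L.Normal).subgroupOf _
  haveI : (L.subgroupOf st.H).Normal := (inferInstance : L.Normal).subgroupOf _
  let stT := inSetup st φ hφ
  let eT := Subgroup.subgroupOfEquivOfLe (le_inertia L φ)
  let eL := Subgroup.subgroupOfEquivOfLe st.L_le_H
  obtain ⟨d, θ, hd, hθ, hsch⟩ := exists_matrix_rep (H43.irrCongr eT φ)
  let R : InvRep (L.subgroupOf (inertia L φ)) d := ⟨θ, hd,
    fun X hX => hsch X hX, fun g l l' e => by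
      rw [hθ, hθ]
      have h := congrFun ((mem_inertia L φ g).mp g.2) (eT l)
      simp only [H56.twist] at h
      show φ.1 (eT l') = φ.1 (eT l)
      rw [← h]
      exact congrArg φ.1 (Subtype.ext (congrArg (fun t : inertia L φ => (t : G)) e))⟩
  have hchi : R.chi = (H43.irrCongr eT φ).1 := funext hθ
  obtain ⟨h1, h2, h3⟩ := correspondence (st := stT) (R := R) (fun s l l' e => by
    rw [hθ, hθ]
    exact hφ s (eT l) (eT l') (congrArg (fun t : inertia L φ => (t : G)) e))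
  have hOver : ∀ f : inertia L φ → ℂ,
      Over R f ↔ Cfsg.classInner (fun l => f (inclT L φ l)) φ.1 ≠ 0 := by
    intro f
    rw [Over, hchi, ← H43.classInner_congr eT (fun l => f (inclT L φ l)) φ.1]
    exact Iff.rfl
  have hOverH : ∀ f : stT.H → ℂ, OverH stT R f ↔
      Cfsg.classInner (fun l => f (inertiaEquiv' st φ hφ
        (inclT (L.subgroupOf st.H) (phiH st φ) l))) (phiH st φ).1 ≠ 0 := by
    intro f
    rw [OverH, hchi]
    have := H43.classInner_congr (eT.trans eL.symm)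
      (fun l => f (inertiaEquiv' st φ hφ (inclT (L.subgroupOf st.H) (phiH st φ) l))) (phiH st φ).1
    rw [← this]
    exact Iff.rfl
  have hcorr : ∀ χ : Cfsg.IrrCharacter G, InvS st χ.1 →
      Cfsg.classInner (fun l : L => χ.1 l) φ.1 ≠ 0 →
      ∃ χ' : Cfsg.IrrCharacter (inertia L φ), InvS stT χ'.1 ∧ Over R χ'.1 ∧
        Cfsg.classInner (fun l => χ'.1 (inclT L φ l)) φ.1 ≠ 0 ∧
        Cfsg.indFun (inertia L φ) χ'.1 = χ.1 := by
    intro χ hinv hc
    obtain ⟨χ', hc', hi⟩ := exists_correspondent χ hc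
    refine ⟨χ', fun s t => ?_, (hOver _).mpr hc', hc', hi⟩
    exact correspondent_invariant (st.act s) (stT.act s) (fun _ => rfl)
      (st.actSub st.act_L s) (fun _ => rfl) (fun l => hφ s l _ rfl) hc' hi (hinv s) t
  have hoverOdd : ∀ (χ' : Cfsg.IrrCharacter (inertia L φ)) (ψ' : Cfsg.IrrCharacter stT.H),
      Cfsg.classInner (fun l => χ'.1 (inclT L φ l)) φ.1 ≠ 0 → OddIn stT χ'.1 ψ' →
      OverH stT R ψ'.1 := by
    intro χ' ψ' hc hodd
    let i : L.subgroupOf (inertia L φ) →* stT.H := Subgroup.inclusion stT.L_le_H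
    obtain ⟨η, hη⟩ : ∃ η : Cfsg.IrrCharacter (L.subgroupOf (inertia L φ)),
        Cfsg.classInner (fun l => ψ'.1 (i l)) η.1 ≠ 0 := by
      by_contra hno
      push Not at hno
      have h := H43.apply_one_eq_sum_mult (H26.isCharacter_comp (H26.irr_isCharacter ψ') i)
      simp only [H43.mult, show ∀ η : Cfsg.IrrCharacter (L.subgroupOf (inertia L φ)),
        Cfsg.classInner (ψ'.1 ∘ ⇑i) η.1 = 0 from hno] at h
      simp at h
      exact H26.irr_one_ne_zero ψ' h
    have hψc : Cfsg.classInner (fun h : stT.H => χ'.1 (stT.H.subtype h)) ψ'.1 ≠ 0 := by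
      intro h0
      rw [OddIn, H43.mult_eq_of_classInner (m := 0) (by rw [Nat.cast_zero]; exact h0)] at hodd
      exact absurd hodd (by decide)
    have hη' := constituent_trans (H26.irr_isCharacter χ') stT.H.subtype i ψ' η hψc hη
    have hφ' : Cfsg.classInner (fun l : L.subgroupOf (inertia L φ) => χ'.1 l)
        (H43.irrCongr eT φ).1 ≠ 0 := by
      rwa [← H43.classInner_congr eT] at hc
    have hconv : ∀ θ' : Cfsg.IrrCharacter (L.subgroupOf (inertia L φ)),
        Cfsg.classInner (fun l : L.subgroupOf (inertia L φ) => χ'.1 l) θ'.1 ≠ 0 →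
        H43.restrMult (L.subgroupOf (inertia L φ)) χ' θ' ≠ 0 := fun θ' h h0 =>
      h ((H43.classInner_eq_mult (H43.isCharacter_restr _ χ') θ').trans (by
        rw [show H43.mult _ θ' = 0 from h0, Nat.cast_zero]))
    obtain ⟨x, hx⟩ := H43.exists_irrConj_of_restrMult_ne_zero _ χ' (hconv _ hφ') (hconv η hη')
    have hηφ : η.1 = R.chi := by
      rw [← hx, hchi]
      funext l
      rw [H43.irrConj_apply, H43.irrCongr_apply, H43.irrCongr_apply]
      have h := congrFun ((mem_inertia L φ x).mp x.2) (eT l)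
      simp only [H56.twist] at h
      rw [← h]
      refine congrArg φ.1 (Subtype.ext ?_)
      have hv := congrArg (fun t : inertia L φ => (t : G)) (MulAut.conjNormal_apply x l)
      exact hv
    rw [OverH, ← hηφ]
    exact hη
  refine ⟨fun χ hinv hc => ?_, fun χ₁ χ₂ hi₁ hi₂ hc₁ hc₂ ψ hψ ho₁ ho₂ => ?_, fun ψ hinv hψ => ?_⟩
  · obtain ⟨χ', hinv', hov, hc', hi⟩ := hcorr χ hinv hc
    obtain ⟨ψ', hodd, huniq⟩ := h1 χ' hinv' hov
    have hψ' := (hOverH _).mp (hoverOdd χ' ψ' hc' hodd)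
    obtain ⟨ψ, e₁, hψ⟩ := induced_irr (H43.irrCongr (inertiaEquiv' st φ hφ) ψ') hψ'
    refine ⟨ψ, ⟨(overψ_iff st φ _).mpr hψ,
      (transfer st φ hφ χ χ' hc' hi ψ' ψ hψ' e₁.symm).mpr hodd⟩, fun ψ₂ hψ₂ => ?_⟩
    obtain ⟨ψ₂', ho, hi₂⟩ := exists_correspondentH st φ hφ ψ₂ hψ₂.1
    have := huniq ψ₂' ((transfer st φ hφ χ χ' hc' hi ψ₂' ψ₂ ho hi₂).mp hψ₂.2)
    rw [this] at hi₂
    exact Subtype.ext (hi₂.symm.trans e₁.symm)
  · obtain ⟨χ₁', a₁, b₁, c₁, e₁⟩ := hcorr χ₁ hi₁ hc₁
    obtain ⟨χ₂', a₂, b₂, c₂, e₂⟩ := hcorr χ₂ hi₂ hc₂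
    obtain ⟨ψ', ho, hi⟩ := exists_correspondentH st φ hφ ψ hψ
    have := h2 χ₁' χ₂' a₁ a₂ b₁ b₂ ψ' ((transfer st φ hφ χ₁ χ₁' c₁ e₁ ψ' ψ ho hi).mp ho₁)
      ((transfer st φ hφ χ₂ χ₂' c₂ e₂ ψ' ψ ho hi).mp ho₂)
    exact Subtype.ext (by rw [← e₁, ← e₂, this])
  · obtain ⟨ψ', ho, hi⟩ := exists_correspondentH st φ hφ ψ hψ
    obtain ⟨χ', hinvχ, hov, hodd⟩ :=
      h3 ψ' (invSH_correspondent st φ hφ ψ hinv ψ' ho hi) ((hOverH _).mpr ho)
    have hc' := (hOver _).mp hov
    obtain ⟨χ, e₁, hc⟩ := induced_irr χ' hc'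
    refine ⟨χ, fun s g => ?_, (transfer st φ hφ χ χ' hc' e₁.symm ψ' ψ ho hi).mpr hodd⟩
    rw [e₁, indFun_comp_aut _ (st.act s) (stT.act s) (fun _ => rfl)]
    exact congrArg (fun f => Cfsg.indFun (inertia L φ) f g) (funext fun t => hinvχ s t)

end Main

end Cfsg.Agent.H44.Parity
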