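import Cfsg.Agent.H44.Parity.Algebra

/-!
# The Weyl system of an invariant character over an abelian section
-/

set_option autoImplicit false

namespace Cfsg.Agent.H44.Parity

/-- An abelian section `K / L` with complement `H` centralised by a coprime group `S` which acts
fixed-point-freely on the section, everything of odd order. -/
structure Setup (G : Type*) [Group G] (S : Type*) [Group S] (L : Subgroup G) where
  K : Subgroup G
  H : Subgroup G
  act : S →* MulAut G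
  odd : Odd (Nat.card G)
  coprime : (Nat.card G).Coprime (Nat.card S)
  K_normal : K.Normal
  L_le_K : L ≤ K
  L_le_H : L ≤ H
  sup : ∀ g, ∃ k ∈ K, ∃ h ∈ H, g = k * h
  inf : ∀ x ∈ K, x ∈ H → x ∈ L
  comm : ∀ a ∈ K, ∀ b ∈ K, a * b * a⁻¹ * b⁻¹ ∈ L
  act_L : ∀ s, ∀ l ∈ L, act s l ∈ L
  act_K : ∀ s, ∀ k ∈ K, act s k ∈ K
  fix_H : ∀ h ∈ H, ∃ l ∈ L, ∃ c, (∀ s, act s c = c) ∧ h = l * c
  fpf : ∀ k ∈ K, (∀ s, k⁻¹ * act s k ∈ L) → k ∈ L

variable {G : Type*} [Group G] [Fintype G] {S : Type*} [Group S] [Finite S] {L : Subgroup G}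
  [L.Normal] [Fintype L]

namespace Setup

variable (st : Setup G S L)

/-- The section. -/
abbrev E : Type _ := st.K ⧸ L.subgroupOf st.K

noncomputable instance : CommGroup st.E :=
  { (inferInstance : Group st.E) with
    mul_comm := by
      intro a b
      obtain ⟨a, rfl⟩ := QuotientGroup.mk_surjective a
      obtain ⟨b, rfl⟩ := QuotientGroup.mk_surjective b
      show ((a * b : st.K) : st.E) = ((b * a : st.K) : st.E)
      refine QuotientGroup.eq.mpr ?_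
      rw [Subgroup.mem_subgroupOf]
      have h := st.comm _ (inv_mem b.2) _ (inv_mem a.2)
      simp only [inv_inv] at h
      simpa [mul_assoc] using h }

/-- The projection. -/
def q : st.K →* st.E := QuotientGroup.mk' _

theorem q_surj : Function.Surjective st.q := QuotientGroup.mk'_surjective _

theorem q_eq_one {k : st.K} : st.q k = 1 ↔ (k : G) ∈ L := by
  rw [q, QuotientGroup.mk'_apply, QuotientGroup.eq_one_iff, Subgroup.mem_subgroupOf]

theorem odd_E : Odd (Nat.card st.E) :=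
  (st.odd.of_dvd_nat (Subgroup.card_subgroup_dvd_card st.K)).of_dvd_nat
    (Subgroup.card_quotient_dvd_card _)

theorem coprime_E : (Nat.card st.E).Coprime (Nat.card S) :=
  Nat.Coprime.coprime_dvd_left ((Subgroup.card_quotient_dvd_card _).trans
    (Subgroup.card_subgroup_dvd_card st.K)) st.coprime

end Setup

variable (st : Setup G S L) {d : ℕ} (R : InvRep L d)

local notation "𝔸" => MonoidAlgebra ℂ G

theorem one_sub_e_mul {a : 𝔸} (h : R.e * a = a) : (1 - R.e) * a = 0 := by rw [sub_mul, one_mul, h, sub_self]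

theorem e_mul_u (k : G) : R.e * R.u k = R.u k := by
  rw [InvRep.u, ← mul_assoc, R.e_comm, mul_assoc, R.e_mul_Λ]

theorem u_mul_e (k : G) : R.u k * R.e = R.u k := by
  rw [InvRep.u, mul_assoc, R.Λ_mul_e]

theorem form_mul {a b : 𝔸} (ha : R.e * a = a) (hb : R.e * b = b) :
    (a + (1 - R.e)) * (b + (1 - R.e)) = a * b + (1 - R.e) := by
  have h1 : (1 - R.e) * b = 0 := one_sub_e_mul R hb
  have h2 : a * (1 - R.e) = 0 := by rw [mul_sub, mul_one, ← R.e_comm, ha, sub_self]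
  have h3 : (1 - R.e) * (1 - R.e) = 1 - R.e := by
    rw [mul_sub, mul_one, sub_mul, one_mul, R.e_idem, sub_self, sub_zero]
  rw [add_mul, mul_add, mul_add, h1, h2, h3]; abel

theorem u_mul_u_ne (k m : G) : ∃ c : ℂ, c ≠ 0 ∧ R.u k * R.u m = c • R.u (k * m) := by
  obtain ⟨c, hc⟩ := R.u_mul_u_eq k m
  refine ⟨c, fun h => R.u_ne_zero m ?_, hc⟩
  rw [h, zero_smul] at hc
  rw [← e_mul_u R m, ← R.u'_mul_u k, mul_assoc, hc, mul_zero]

theorem e_eq_u_one : ∃ c : ℂ, c ≠ 0 ∧ R.e = c • R.u 1 := by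
  obtain ⟨c, hc, h⟩ := R.u_of_mem (one_mem L)
  exact ⟨c⁻¹, inv_ne_zero hc, by rw [h, smul_smul, inv_mul_cancel₀ hc, one_smul]⟩

theorem u_mul_mem (k : G) {l : G} (hl : l ∈ L) : ∃ c : ℂ, c ≠ 0 ∧ R.u (k * l) = c • R.u k := by
  obtain ⟨c, hc, h⟩ := u_mul_u_ne R k l
  obtain ⟨b, hb, h'⟩ := R.u_of_mem hl
  rw [h', mul_smul_comm, u_mul_e] at h
  refine ⟨c⁻¹ * b, mul_ne_zero (inv_ne_zero hc) hb, ?_⟩
  rw [← smul_smul, h, smul_smul, inv_mul_cancel₀ hc, one_smul]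

/-- The elements of the system. -/
def unitsGroup : Subgroup (𝔸ˣ × st.E) where
  carrier := {p | ∃ (k : st.K) (c : ℂ), c ≠ 0 ∧ (p.1 : 𝔸) = c • R.u k + (1 - R.e) ∧ st.q k = p.2}
  one_mem' := by
    obtain ⟨c, hc, h⟩ := e_eq_u_one R
    refine ⟨1, c, hc, ?_, map_one _⟩
    show ((1 : 𝔸ˣ) : 𝔸) = c • R.u ((1 : st.K) : G) + _
    rw [OneMemClass.coe_one, ← h, add_sub_cancel, Units.val_one]
  mul_mem' := by
    rintro ⟨w, x⟩ ⟨w', x'⟩ ⟨k, c, hc, hw, hk⟩ ⟨k', c', hc', hw', hk'⟩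
    obtain ⟨b, hb, h⟩ := u_mul_u_ne R (k : G) k'
    refine ⟨k * k', c * c' * b, mul_ne_zero (mul_ne_zero hc hc') hb, ?_, ?_⟩
    · show ((w * w' : 𝔸ˣ) : 𝔸) = _
      rw [Units.val_mul, hw, hw', form_mul R (by rw [mul_smul_comm, e_mul_u])
        (by rw [mul_smul_comm, e_mul_u]), smul_mul_smul_comm, h, smul_smul]
      rfl
    · show st.q (k * k') = x * x'
      rw [map_mul, hk, hk']
  inv_mem' := by
    rintro ⟨w, x⟩ ⟨k, c, hc, hw, hk⟩
    obtain ⟨b, hb, h⟩ := u_mul_u_ne R (k : G) (k : G)⁻¹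
    obtain ⟨a, ha, he⟩ := e_eq_u_one R
    rw [mul_inv_cancel] at h
    refine ⟨k⁻¹, c⁻¹ * (a * b⁻¹), mul_ne_zero (inv_ne_zero hc) (mul_ne_zero ha (inv_ne_zero hb)), ?_, ?_⟩
    · show ((w⁻¹ : 𝔸ˣ) : 𝔸) = _
      refine (Units.eq_inv_of_mul_eq_one_left (u := w) ?_).symm
      rw [hw, form_mul R (by rw [mul_smul_comm, e_mul_u]) (by rw [mul_smul_comm, e_mul_u]),
        smul_mul_smul_comm, Subgroup.coe_inv, h, smul_smul,
        show c * (c⁻¹ * (a * b⁻¹)) * b = a by field_simp, ← he, add_sub_cancel]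
    · show st.q k⁻¹ = x⁻¹
      rw [map_inv, hk]

theorem mem_form {p : 𝔸ˣ × st.E} (hp : p ∈ unitsGroup st R) (k : st.K) (hk : st.q k = p.2) :
    ∃ c : ℂ, c ≠ 0 ∧ (p.1 : 𝔸) = c • R.u k + (1 - R.e) := by
  obtain ⟨k', c, hc, hw, hk'⟩ := hp
  have hl : (k : G)⁻¹ * k' ∈ L := (st.q_eq_one (k := k⁻¹ * k')).mp (by rw [map_mul, map_inv, hk, hk', inv_mul_cancel])
  obtain ⟨b, hb, h⟩ := u_mul_mem R (k : G) hl
  rw [mul_inv_cancel_left] at h
  exact ⟨c * b, mul_ne_zero hc hb, by rw [hw, h, smul_smul]⟩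

theorem mem_comm_L {p : 𝔸ˣ × st.E} (hp : p ∈ unitsGroup st R) (a : L) :
    InvRep.ν (a : G) * (p.1 : 𝔸) = (p.1 : 𝔸) * InvRep.ν (a : G) := by
  obtain ⟨k, c, -, hw, -⟩ := hp
  rw [hw, mul_add, add_mul, mul_smul_comm, smul_mul_assoc, R.u_comm_L, mul_sub, sub_mul, mul_one,
    one_mul, R.e_comm]

/-- The scalar units. -/
noncomputable def scalarUnit : ℂˣ →* unitsGroup st R where
  toFun c := ⟨(⟨(c : ℂ) • R.e + (1 - R.e), ((c⁻¹ : ℂˣ) : ℂ) • R.e + (1 - R.e), by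
      rw [form_mul R (by rw [mul_smul_comm, R.e_idem]) (by rw [mul_smul_comm, R.e_idem]),
        smul_mul_smul_comm, R.e_idem, Units.mul_inv, one_smul, add_sub_cancel], by
      rw [form_mul R (by rw [mul_smul_comm, R.e_idem]) (by rw [mul_smul_comm, R.e_idem]),
        smul_mul_smul_comm, R.e_idem, Units.inv_mul, one_smul, add_sub_cancel]⟩, 1), by
      obtain ⟨b, hb, h⟩ := e_eq_u_one R
      refine ⟨1, c * b, mul_ne_zero c.ne_zero hb, ?_, map_one _⟩
      show (c : ℂ) • R.e + (1 - R.e) = _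
      rw [OneMemClass.coe_one, ← smul_smul, ← h]⟩
  map_one' := Subtype.ext (Prod.ext (Units.ext (by
    show ((1 : ℂˣ) : ℂ) • R.e + (1 - R.e) = 1
    rw [Units.val_one, one_smul, add_sub_cancel])) rfl)
  map_mul' a b := Subtype.ext (Prod.ext (Units.ext (by
    show ((a * b : ℂˣ) : ℂ) • R.e + (1 - R.e) = ((a : ℂ) • R.e + (1 - R.e)) * ((b : ℂ) • R.e + (1 - R.e))
    rw [form_mul R (by rw [mul_smul_comm, R.e_idem]) (by rw [mul_smul_comm, R.e_idem]),
      smul_mul_smul_comm, R.e_idem, Units.val_mul])) (one_mul 1).symm)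

theorem scalarUnit_val (c : ℂˣ) :
    (((scalarUnit st R c).1.1 : 𝔸ˣ) : 𝔸) = (c : ℂ) • R.e + (1 - R.e) := rfl

/-- The extension. -/
noncomputable def ext : Ext (unitsGroup st R) st.E where
  π := (MonoidHom.snd _ _).comp (unitsGroup st R).subtype
  j := scalarUnit st R
  surj x := by
    obtain ⟨k, rfl⟩ := st.q_surj x
    obtain ⟨b, hb, h⟩ := u_mul_u_ne R (k : G) (k : G)⁻¹
    obtain ⟨b', hb', h'⟩ := u_mul_u_ne R (k : G)⁻¹ (k : G)
    obtain ⟨a, ha, he⟩ := e_eq_u_one R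
    rw [mul_inv_cancel] at h
    rw [inv_mul_cancel] at h'
    refine ⟨⟨(⟨R.u k + (1 - R.e), R.u' k + (1 - R.e), ?_, ?_⟩, st.q k), ⟨k, 1, one_ne_zero, ?_, rfl⟩⟩, rfl⟩
    · rw [form_mul R (e_mul_u R _) (by rw [InvRep.u', ← mul_assoc, R.e_mul_Λ]), R.u_mul_u',
        add_sub_cancel]
    · rw [form_mul R (by rw [InvRep.u', ← mul_assoc, R.e_mul_Λ]) (e_mul_u R _), R.u'_mul_u,
        add_sub_cancel]
    · show R.u k + (1 - R.e) = _
      rw [one_smul]
  inj a b h := by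
    have h1 := congrArg (fun w : unitsGroup st R => ((w.1.1 : 𝔸ˣ) : 𝔸)) h
    simp only [scalarUnit_val, add_left_inj] at h1
    exact Units.ext (smul_left_injective ℂ (show R.e ≠ 0 from fun h0 =>
      R.u_ne_zero 1 (by rw [← e_mul_u R 1, h0, zero_mul])) h1)
  central c w := by
    refine Subtype.ext (Prod.ext (Units.ext ?_) (mul_comm _ _))
    show ((c : ℂ) • R.e + (1 - R.e)) * ((w.1.1 : 𝔸ˣ) : 𝔸) = ((w.1.1 : 𝔸ˣ) : 𝔸) * ((c : ℂ) • R.e + (1 - R.e))
    rw [add_mul, mul_add, smul_mul_assoc, mul_smul_comm, R.e_comm, sub_mul, mul_sub, one_mul,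
      mul_one, R.e_comm]
  ker w := by
    constructor
    · intro hw
      obtain ⟨c, hc, h⟩ := mem_form st R w.2 1 (by rw [map_one]; exact hw.symm)
      obtain ⟨b, hb, hu⟩ := R.u_of_mem (one_mem L)
      refine ⟨Units.mk0 (c * b) (mul_ne_zero hc hb), Subtype.ext (Prod.ext (Units.ext ?_) hw.symm)⟩
      show (c * b) • R.e + (1 - R.e) = _
      rw [h, OneMemClass.coe_one, hu, smul_smul]
    · rintro ⟨c, rfl⟩; rfl
  odd := st.odd_E
  fin := inferInstance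

/-- An automorphism of `G` preserving everything. -/
structure Auto where
  α : MulAut G
  down : st.E ≃* st.E
  mapL : ∀ l, α l ∈ L ↔ l ∈ L
  mapK : ∀ k : st.K, ∃ h : α (k : G) ∈ st.K, st.q ⟨α k, h⟩ = down (st.q k)
  char : ∀ l l' : L, (l' : G) = α l → (R.θ l').trace = (R.θ l).trace

variable {st R}

namespace Auto

variable (a : Auto st R)

/-- The action on the group algebra. -/
noncomputable def alg : 𝔸 ≃ₐ[ℂ] 𝔸 := MonoidAlgebra.domCongr ℂ ℂ a.α

theorem alg_ν (g : G) : a.alg (InvRep.ν g) = InvRep.ν (a.α g) := by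
  simp [alg, MonoidAlgebra.of_apply]

theorem alg_Λ (A : Matrix (Fin d) (Fin d) ℂ) : ∃ A', a.alg (R.Λ A) = R.Λ A' := by
  let α' : L ≃* L :=
    { toFun := fun l => ⟨a.α l, (a.mapL l).mpr l.2⟩
      invFun := fun l => ⟨a.α.symm l, (a.mapL _).mp (by rw [MulEquiv.apply_symm_apply]; exact l.2)⟩
      left_inv := fun l => Subtype.ext (a.α.symm_apply_apply _)
      right_inv := fun l => Subtype.ext (a.α.apply_symm_apply _)
      map_mul' := fun x y => Subtype.ext (map_mul a.α _ _) }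
  obtain ⟨P, hP⟩ := R.exists_intertwiner α'.toMonoidHom (fun l => a.char l _ rfl)
  exact ⟨_, R.map_Λ a.alg.toLinearMap α' (fun l => a.alg_ν _) P hP A⟩

theorem alg_e : a.alg R.e = R.e := by
  let α' : L ≃* L :=
    { toFun := fun l => ⟨a.α l, (a.mapL l).mpr l.2⟩
      invFun := fun l => ⟨a.α.symm l, (a.mapL _).mp (by rw [MulEquiv.apply_symm_apply]; exact l.2)⟩
      left_inv := fun l => Subtype.ext (a.α.symm_apply_apply _)
      right_inv := fun l => Subtype.ext (a.α.apply_symm_apply _)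
      map_mul' := fun x y => Subtype.ext (map_mul a.α _ _) }
  obtain ⟨P, hP⟩ := R.exists_intertwiner α'.toMonoidHom (fun l => a.char l _ rfl)
  show a.alg.toLinearMap (R.Λ 1) = R.Λ 1
  rw [R.map_Λ a.alg.toLinearMap α' (fun l => a.alg_ν _) P hP, mul_one, Units.mul_inv]

theorem alg_u (k : G) : ∃ c : ℂ, c ≠ 0 ∧ a.alg (R.u k) = c • R.u (a.α k) := by
  obtain ⟨A, hA⟩ := a.alg_Λ ((R.Q k)⁻¹ : (Matrix (Fin d) (Fin d) ℂ)ˣ)
  have h1 : a.alg (R.u k) = InvRep.ν (a.α k) * R.Λ A := by rw [InvRep.u, map_mul, hA, a.alg_ν]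
  obtain ⟨c, hc⟩ := R.eq_smul_u (a.α k) A fun l => by
    rw [← h1]
    obtain ⟨m, hm⟩ : ∃ m : L, a.α m = (l : G) :=
      ⟨⟨a.α.symm l, (a.mapL _).mp (by rw [MulEquiv.apply_symm_apply]; exact l.2)⟩, a.α.apply_symm_apply _⟩
    rw [← hm, ← a.alg_ν, ← map_mul, ← map_mul, R.u_comm_L]
  refine ⟨c, fun h => R.u_ne_zero k (a.alg.injective ?_), h1.trans hc⟩
  rw [h1, hc, h, zero_smul, map_zero]

/-- The map of the unit pairs. -/
noncomputable def upFun : 𝔸ˣ × st.E ≃* 𝔸ˣ × st.E :=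
  MulEquiv.prodCongr (Units.mapEquiv a.alg.toMulEquiv) a.down

theorem upFun_mem {p : 𝔸ˣ × st.E} (hp : p ∈ unitsGroup st R) : a.upFun p ∈ unitsGroup st R := by
  obtain ⟨k, c, hc, hw, hk⟩ := hp
  obtain ⟨hk', hq⟩ := a.mapK k
  obtain ⟨b, hb, hu⟩ := a.alg_u (k : G)
  refine ⟨⟨a.α k, hk'⟩, c * b, mul_ne_zero hc hb, ?_, ?_⟩
  · show a.alg (p.1 : 𝔸) = _
    rw [hw, map_add, map_smul, hu, smul_smul, map_sub, map_one, a.alg_e]
  · show st.q _ = a.down p.2
    rw [hq, hk]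

theorem map_unitsGroup : (unitsGroup st R).map a.upFun.toMonoidHom = unitsGroup st R := by
  refine le_antisymm ?_ fun p hp => ?_
  · rintro _ ⟨p, hp, rfl⟩
    exact a.upFun_mem hp
  · obtain ⟨k, c, hc, hw, hk⟩ := hp
    obtain ⟨x, hx⟩ := a.down.surjective p.2
    obtain ⟨m, rfl⟩ := st.q_surj x
    obtain ⟨hm, hq⟩ := a.mapK m
    obtain ⟨c', hc', hw'⟩ := mem_form st R (p := p) ⟨k, c, hc, hw, hk⟩ ⟨a.α m, hm⟩ (hq.trans hx)
    obtain ⟨b, hb, hu⟩ := a.alg_u (m : G)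
    refine ⟨a.upFun.symm p, ⟨m, c' * b⁻¹, mul_ne_zero hc' (inv_ne_zero hb), ?_, ?_⟩,
      a.upFun.apply_symm_apply p⟩
    · show a.alg.symm (p.1 : 𝔸) = _
      refine a.alg.injective ?_
      rw [AlgEquiv.apply_symm_apply, map_add, map_smul, hu, smul_smul, map_sub, map_one, a.alg_e,
        hw', mul_assoc, inv_mul_cancel₀ hb, mul_one]
    · show _ = a.down.symm p.2
      rw [← hx, MulEquiv.symm_apply_apply]

/-- The symmetry of the extension. -/
noncomputable def symm : (ext st R).Symm where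
  up := (a.upFun.subgroupMap (unitsGroup st R)).trans (MulEquiv.subgroupCongr a.map_unitsGroup)
  down := a.down
  comm _ := rfl
  fix c := by
    refine Subtype.ext (Prod.ext (Units.ext ?_) (map_one a.down))
    show a.alg ((c : ℂ) • R.e + (1 - R.e)) = (c : ℂ) • R.e + (1 - R.e)
    rw [map_add, map_smul, map_sub, map_one, a.alg_e]

theorem symm_up_fst (w : unitsGroup st R) :
    (((a.symm.up w).1.1 : 𝔸ˣ) : 𝔸) = a.alg ((w.1.1 : 𝔸ˣ) : 𝔸) := rfl

theorem symm_up_snd (w : unitsGroup st R) : (a.symm.up w).1.2 = a.down w.1.2 := rfl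

end Auto

end Cfsg.Agent.H44.Parity
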